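import Mathlib
import Cfsg.Agent.H558.CsAct

/-!
# The special element of a Sylow subgroup (helper558, for S4284)
-/

set_option autoImplicit false

namespace Cfsg.Agent.H558.Cs

open Subgroup

variable {G : Type*} [Group G]

theorem comm_pow_eq {x g : G} (hg : g * x * g⁻¹ * x⁻¹ ∈ center G) (n : ℕ) :
    g * x ^ n * g⁻¹ * (x ^ n)⁻¹ = (g * x * g⁻¹ * x⁻¹) ^ n := by
  set z := g * x * g⁻¹ * x⁻¹ with hz
  have h2 : g * x * g⁻¹ = z * x := by rw [hz]; group
  have h3 : g * x ^ n * g⁻¹ = z ^ n * x ^ n := by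
    rw [← (show Commute z x from (mem_center_iff.1 hg x).symm).mul_pow, ← h2, conj_pow]
  rw [h3]; group

/-- The subgroup where `g ↦ [g, x]` is central. -/
def LC (x : G) : Subgroup G where
  carrier := {g | g * x * g⁻¹ * x⁻¹ ∈ center G}
  mul_mem' := by
    intro g h hg hh
    simp only [Set.mem_ofPred_eq] at hg hh ⊢
    have hh' : h * x * h⁻¹ * x⁻¹ ∈ center G := hh
    set z := h * x * h⁻¹ * x⁻¹ with hz
    have h2 : h * x * h⁻¹ = z * x := by rw [hz]; group
    have hzc := fun y => mem_center_iff.1 hh' y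
    have : (g * h) * x * (g * h)⁻¹ * x⁻¹ = (g * x * g⁻¹ * x⁻¹) * z := by
      calc (g * h) * x * (g * h)⁻¹ * x⁻¹ = g * (h * x * h⁻¹) * g⁻¹ * x⁻¹ := by group
        _ = (g * z) * x * g⁻¹ * x⁻¹ := by rw [h2]; group
        _ = z * (g * x * g⁻¹ * x⁻¹) := by rw [hzc g]; group
        _ = (g * x * g⁻¹ * x⁻¹) * z := by rw [hzc]
    rw [this]
    exact mul_mem hg hh'
  one_mem' := by simp
  inv_mem' := by
    intro g hg
    simp only [Set.mem_ofPred_eq] at hg ⊢
    set z := g * x * g⁻¹ * x⁻¹ with hz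
    have hzc := fun y => mem_center_iff.1 hg y
    have h2 : g⁻¹ * x * g⁻¹⁻¹ * x⁻¹ = z⁻¹ := by
      have h3 : x = g⁻¹ * (z * x) * g := by rw [hz]; group
      have h4 : x = z * (g⁻¹ * x * g) := by
        calc x = g⁻¹ * (z * x) * g := h3
          _ = (g⁻¹ * z) * x * g := by group
          _ = z * (g⁻¹ * x * g) := by rw [hzc]; group
      have h5 : g⁻¹ * x * g = z⁻¹ * x := by rw [eq_inv_mul_iff_mul_eq]; exact h4.symm
      rw [inv_inv, h5]; group
    rw [h2]
    exact inv_mem hg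

theorem mem_LC {x g : G} : g ∈ LC x ↔ g * x * g⁻¹ * x⁻¹ ∈ center G := Iff.rfl

/-- the commutator homomorphism -/
def fC (x : G) : LC x →* center G where
  toFun g := ⟨g * x * (g : G)⁻¹ * x⁻¹, g.2⟩
  map_one' := Subtype.ext (by simp)
  map_mul' := by
    rintro ⟨g, hg⟩ ⟨h, hh⟩
    apply Subtype.ext
    have hh' : h * x * h⁻¹ * x⁻¹ ∈ center G := hh
    set z := h * x * h⁻¹ * x⁻¹ with hz
    have h2 : h * x * h⁻¹ = z * x := by rw [hz]; group
    have hzc := fun y => mem_center_iff.1 hh' y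
    change (g * h) * x * (g * h)⁻¹ * x⁻¹ = (g * x * g⁻¹ * x⁻¹) * z
    calc (g * h) * x * (g * h)⁻¹ * x⁻¹ = g * (h * x * h⁻¹) * g⁻¹ * x⁻¹ := by group
      _ = (g * z) * x * g⁻¹ * x⁻¹ := by rw [h2]; group
      _ = z * (g * x * g⁻¹ * x⁻¹) := by rw [hzc g]; group
      _ = (g * x * g⁻¹ * x⁻¹) * z := by rw [hzc]

theorem fC_coe (x : G) (g : LC x) : ((fC x g : center G) : G) = g * x * (g : G)⁻¹ * x⁻¹ := rfl

theorem fC_eq_one {x : G} (g : LC x) : fC x g = 1 ↔ (g : G) ∈ CG x := by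
  rw [mem_CG, Subtype.ext_iff, fC_coe, coe_one, mul_inv_eq_one, mul_inv_eq_iff_eq_mul]

variable [Finite G] {p a : ℕ} [hp : Fact p.Prime]

theorem fC_pow_eq_one {x : G} (hx : x ^ p ∈ center G) (g : LC x) : fC x g ^ p = 1 := by
  apply Subtype.ext
  rw [SubmonoidClass.coe_pow, fC_coe, ← comm_pow_eq g.2, coe_one,
    mul_inv_eq_one, mul_inv_eq_iff_eq_mul]
  exact mem_center_iff.1 hx g

theorem card_range_fC_le (hB : Base G p a) {x : G} (hxc : x ∉ center G)
    (hx : x ^ p ∈ center G) : Nat.card (fC x).range ≤ p ^ a := by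
  have hpg : IsPGroup p (fC x).range := by
    rintro ⟨y, g, rfl⟩
    exact ⟨1, Subtype.ext (by rw [pow_one]; exact fC_pow_eq_one hx g)⟩
  obtain ⟨j, hj⟩ := IsPGroup.iff_card.1 hpg
  have hCL : CG x ≤ LC x := by
    intro g hg
    rw [mem_CG] at hg
    rw [mem_LC, hg]; simp
  have h1 : Nat.card (fC x).range ∣ (CG x).index := by
    have h2 : (fC x).ker = (CG x).subgroupOf (LC x) := by
      ext g
      rw [MonoidHom.mem_ker, fC_eq_one, mem_subgroupOf]
    have h3 : Nat.card (fC x).range = (fC x).ker.index := by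
      rw [Subgroup.index_ker]
    rw [h3, h2]
    exact Dvd.intro _ (relIndex_mul_index hCL)
  rw [hj] at h1 ⊢
  have h4 := (hp.out.pow_dvd_iff_le_factorization FiniteIndex.index_ne_zero).1 h1
  rw [hB.ind x hxc] at h4
  exact Nat.pow_le_pow_right hp.out.pos h4

namespace Spec

variable {P : Sylow p G} {x : G} {P0 H : Subgroup G}

theorem le_LC (h : Spec P x) : (P : Subgroup G) ≤ LC x := fun g hg => h.comm g hg

theorem card_mul (hB : Base G p a) (h : Spec P x) (hD : Dec p (CG x) P0 H) :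
    Nat.card P = Nat.card P0 * p ^ a := by
  rw [hD.card_P, ← pow_add, hB.card_add h.nc]
  exact P.card_eq_multiplicity

/-- `C_P(x)` is the `p`-part of `C(x)`. -/
theorem eq_inf (hB : Base G p a) (h : Spec P x) (hD : Dec p (CG x) P0 H) :
    P0 = (P : Subgroup G) ⊓ CG x := by
  have hle : (P : Subgroup G) ⊓ CG x ≤ P0 := fun g hg =>
    hD.mem_P hg.2 (PEl.of_mem P.2 hg.1)
  symm
  apply eq_of_le_of_card_ge hle
  set f : (P : Subgroup G) →* center G := (fC x).comp (inclusion h.le_LC) with hf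
  have h1 : Nat.card P = Nat.card f.ker * Nat.card f.range := by
    rw [← Subgroup.index_ker, card_mul_index]
  have h2 : Nat.card f.range ≤ p ^ a := by
    refine le_trans ?_ (card_range_fC_le hB h.nc h.pow)
    refine card_le_of_le (?_ : f.range ≤ (fC x).range)
    rintro _ ⟨g, rfl⟩
    exact ⟨_, rfl⟩
  have h3 : Nat.card f.ker ≤ Nat.card ((P : Subgroup G) ⊓ CG x : Subgroup G) := by
    have h4 : f.ker.map (P : Subgroup G).subtype ≤ (P : Subgroup G) ⊓ CG x := by
      rintro _ ⟨g, hg, rfl⟩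
      refine ⟨g.2, ?_⟩
      have : fC x (inclusion h.le_LC g) = 1 := hg
      rw [fC_eq_one] at this
      exact this
    refine le_trans (le_of_eq ?_) (card_le_of_le h4)
    exact Nat.card_congr (f.ker.equivMapOfInjective _ (P : Subgroup G).subtype_injective).toEquiv
  rw [card_mul hB h hD] at h1
  have hpos : 0 < p ^ a := Nat.pow_pos hp.out.pos
  by_contra hcon
  push Not at hcon
  have h5 : Nat.card f.ker < Nat.card P0 := lt_of_le_of_lt h3 hcon
  have h6 : Nat.card f.ker * Nat.card f.range ≤ Nat.card f.ker * p ^ a :=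
    Nat.mul_le_mul_left _ h2
  have h7 : Nat.card f.ker * p ^ a < Nat.card P0 * p ^ a := Nat.mul_lt_mul_of_pos_right h5 hpos
  omega

theorem P0_le (hB : Base G p a) (h : Spec P x) (hD : Dec p (CG x) P0 H) :
    P0 ≤ (P : Subgroup G) := by
  rw [eq_inf hB h hD]; exact inf_le_left

theorem pow_mem (hB : Base G p a) (h : Spec P x) (hD : Dec p (CG x) P0 H) {g : G} (hg : g ∈ P) :
    g ^ p ∈ P0 := by
  rw [eq_inf hB h hD]
  refine ⟨Subgroup.pow_mem _ hg p, ?_⟩
  have h1 := fC_pow_eq_one h.pow ⟨g, h.le_LC hg⟩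
  rw [← map_pow, fC_eq_one] at h1
  exact h1

theorem commutator_mem (hB : Base G p a) (h : Spec P x) (hD : Dec p (CG x) P0 H) {g k : G}
    (hg : g ∈ (P : Subgroup G)) (hk : k ∈ (P : Subgroup G)) : g * k * g⁻¹ * k⁻¹ ∈ P0 := by
  rw [eq_inf hB h hD]
  refine ⟨(P : Subgroup G).mul_mem ((P : Subgroup G).mul_mem ((P : Subgroup G).mul_mem hg hk)
    ((P : Subgroup G).inv_mem hg)) ((P : Subgroup G).inv_mem hk), ?_⟩
  have h1 : fC x ((⟨g, h.le_LC hg⟩ : LC x) * ⟨k, h.le_LC hk⟩ * (⟨g, h.le_LC hg⟩ : LC x)⁻¹ *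
      (⟨k, h.le_LC hk⟩ : LC x)⁻¹) = 1 := by
    rw [map_mul, map_mul, map_mul, map_inv, map_inv]
    have hc : fC x ⟨g, h.le_LC hg⟩ * fC x ⟨k, h.le_LC hk⟩ =
        fC x ⟨k, h.le_LC hk⟩ * fC x ⟨g, h.le_LC hg⟩ :=
      Subtype.ext (mem_center_iff.1 (fC x ⟨k, h.le_LC hk⟩).2 _)
    rw [hc]; group
  rw [fC_eq_one] at h1
  exact h1

theorem conj_H (h : Spec P x) (hD : Dec p (CG x) P0 H) :
    ∀ g ∈ (P : Subgroup G), ∀ u ∈ H, g * u * g⁻¹ ∈ H := fun _ hg _ hu =>
  hD.conj_H (h.conj_CG hg) hu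

theorem fix (hB : Base G p a) (h : Spec P x) (hD : Dec p (CG x) P0 H) {g u : G} (hg : g ∈ P)
    (hg0 : g ∉ P0) (hu : u ∈ H) (hgu : g * u = u * g) : u ∈ center G := by
  by_contra huc
  have hle : P0 ⊔ zpowers g ≤ CG u := by
    apply sup_le
    · intro y hy
      exact mem_CG.2 (hD.comm y hy u hu)
    · exact zpowers_le.2 (mem_CG.2 hgu)
  have hpg : IsPGroup p (P0 ⊔ zpowers g : Subgroup G) :=
    P.2.to_le (sup_le (P0_le hB h hD) (zpowers_le.2 hg))
  have h1 := card_le_of_isPGroup hpg hle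
  rw [hB.card_eq huc h.nc, ← hD.card_P] at h1
  have h2 : P0 = P0 ⊔ zpowers g := eq_of_le_of_card_ge le_sup_left h1
  apply hg0
  rw [h2]
  exact mem_sup_right (mem_zpowers g)

theorem exists_not_mem (hB : Base G p a) (h : Spec P x) (hD : Dec p (CG x) P0 H) :
    ∃ t ∈ P, t ∉ P0 := by
  by_contra hcon
  push Not at hcon
  have h1 := card_le_of_le (show (P : Subgroup G) ≤ P0 from hcon)
  have h2 := card_mul hB h hD
  have h3 : 2 ≤ p ^ a := by
    calc 2 ≤ p := hp.out.two_le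
      _ = p ^ 1 := (pow_one p).symm
      _ ≤ p ^ a := Nat.pow_le_pow_right hp.out.pos hB.pos
  have h4 : 0 < Nat.card P0 := Nat.card_pos
  have h5 : Nat.card P0 * 2 ≤ Nat.card P0 * p ^ a := Nat.mul_le_mul_left _ h3
  change Nat.card (P : Subgroup G) ≤ _ at h1
  have h6 : Nat.card (P : Subgroup G) = Nat.card P0 * p ^ a := h2
  omega

theorem nilp (hB : Base G p a) (h : Spec P x) (hD : Dec p (CG x) P0 H) : Group.IsNilpotent H := by
  obtain ⟨t, ht, ht0⟩ := exists_not_mem hB h hD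
  refine isNilpotent_of_fpf (q := p) H hD.cop (t := t) (PEl.of_mem P.2 ht)
    (conj_H h hD t ht) ?_ (fun u hu htu => fix hB h hD ht ht0 hu htu)
  intro u hu
  exact hD.comm _ (pow_mem hB h hD ht) u hu

/-- If `C(x)` has non-central `p'`-elements then `a = 1`. -/
theorem a_eq_one (hB : Base G p a) (h : Spec P x) (hD : Dec p (CG x) P0 H)
    (hH : ¬ H ≤ center G) : a = 1 := by
  have hnil := nilp hB h hD
  set K := H.map (QuotientGroup.mk' (center G)) with hK
  set Φ := act H (P : Subgroup G) (conj_H h hD) with hΦ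
  obtain ⟨u, hu, huc⟩ := Set.not_subset.1 hH
  have huK : QuotientGroup.mk' (center G) u ∈ K := mem_map_of_mem _ hu
  have hnK : Nontrivial K := by
    refine ⟨⟨⟨_, huK⟩, 1, ?_⟩⟩
    intro h1
    exact huc ((QuotientGroup.eq_one_iff u).1 (congrArg Subtype.val h1))
  have hnilK : Group.IsNilpotent K := by
    have hsurj : Function.Surjective ((QuotientGroup.mk' (center G)).subgroupMap H) :=
      MonoidHom.subgroupMap_surjective _ _
    exact Group.nilpotent_of_surjective _ hsurj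
  have hker : ∀ g : (P : Subgroup G), (g : G) ∈ P0 → Φ g = 1 := by
    intro g hg
    ext ⟨y, hy⟩
    obtain ⟨v, hv, rfl⟩ := hy
    rw [hΦ, act_apply]
    change (QuotientGroup.mk' (center G) g) * (QuotientGroup.mk' (center G) v) *
        (QuotientGroup.mk' (center G) g)⁻¹ = QuotientGroup.mk' (center G) v
    rw [← map_mul, ← map_inv, ← map_mul, hD.comm g hg v hv, mul_inv_cancel_right]
  have hfix : ∀ g : (P : Subgroup G), (g : G) ∉ P0 → ∀ v : K, Φ g v = v → v = 1 := by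
    rintro g hg ⟨y, hy⟩ hv
    obtain ⟨v, hv', rfl⟩ := hy
    have h1 : (g : G) * v = v * g :=
      act_fix H (P : Subgroup G) (conj_H h hD) hD.cop g.2 (PEl.of_mem P.2 g.2) hv' hv
    apply Subtype.ext
    exact (QuotientGroup.eq_one_iff v).2 (fix hB h hD g.2 hg hv' h1)
  have hcyc : IsCyclic Φ.range := by
    refine Cfsg.Agent.Solvable.FpfCyclic.isCyclic_of_fpf_nilpotent (W := K) ?_ Φ.range.subtype ?_
    · rintro ⟨_, g, rfl⟩ ⟨_, k, rfl⟩
      apply Subtype.ext
      change Φ g * Φ k = Φ k * Φ g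
      rw [← map_mul, ← map_mul]
      have h1 : g * k = (g * k * g⁻¹ * k⁻¹) * (k * g) := by group
      rw [h1, map_mul, hker (g * k * g⁻¹ * k⁻¹) (commutator_mem hB h hD g.2 k.2), one_mul]
    · rintro ⟨_, g, rfl⟩ hne v hv
      refine hfix g ?_ v hv
      intro hg
      exact hne (Subtype.ext (hker g hg))
  have hcard : Nat.card Φ.range ≤ p := by
    obtain ⟨r, hr⟩ := hcyc.exists_generator
    rw [← orderOf_eq_card_of_forall_mem_zpowers hr]
    apply Nat.le_of_dvd hp.out.pos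
    apply orderOf_dvd_of_pow_eq_one
    obtain ⟨_, g, rfl⟩ := r
    apply Subtype.ext
    change Φ g ^ p = 1
    rw [← map_pow]
    exact hker _ (pow_mem hB h hD g.2)
  have h1 : Nat.card P = Nat.card Φ.ker * Nat.card Φ.range := by
    rw [← Subgroup.index_ker, card_mul_index]
  have h2 : Nat.card Φ.ker ≤ Nat.card P0 := by
    have h4 : Φ.ker.map (P : Subgroup G).subtype ≤ P0 := by
      rintro _ ⟨g, hg, rfl⟩
      by_contra hg0
      have hg1 : Φ g = 1 := hg
      have h5 := hfix g hg0 ⟨_, huK⟩ (by rw [hg1]; rfl)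
      exact huc ((QuotientGroup.eq_one_iff u).1 (congrArg Subtype.val h5))
    refine le_trans (le_of_eq ?_) (card_le_of_le h4)
    exact Nat.card_congr (Φ.ker.equivMapOfInjective _ (P : Subgroup G).subtype_injective).toEquiv
  have h3 := card_mul hB h hD
  have h4 : Nat.card P0 * p ^ a ≤ Nat.card P0 * p := by
    rw [← h3, h1]
    exact Nat.mul_le_mul h2 hcard
  have h5 : p ^ a ≤ p ^ 1 := by
    rw [pow_one]; exact Nat.le_of_mul_le_mul_left h4 Nat.card_pos
  have h6 := (Nat.pow_le_pow_iff_right hp.out.one_lt).1 h5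
  have := hB.pos
  omega

end Spec

end Cfsg.Agent.H558.Cs
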