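import Mathlib
import Cfsg.Agent.H558.CsBasic

/-!
# Groups whose non-central class sizes have the same `p`-part (helper558, for S4284)
-/

set_option autoImplicit false

namespace Cfsg.Agent.H558.Cs

open Subgroup

variable {G : Type*} [Group G]

/-- the centralizer of an element -/
abbrev CG (x : G) : Subgroup G := centralizer ({x} : Set G)

theorem mem_CG {x y : G} : y ∈ CG x ↔ y * x = x * y := mem_centralizer_singleton_iff

theorem center_le_CG (x : G) : center G ≤ CG x := fun _ hz =>
  mem_CG.2 ((mem_center_iff.1 hz x).symm)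

theorem self_mem_CG (x : G) : x ∈ CG x := mem_CG.2 rfl

theorem CG_eq_top_iff {x : G} : CG x = ⊤ ↔ x ∈ center G := by
  constructor
  · intro h
    rw [mem_center_iff]
    intro g
    have : g ∈ CG x := h ▸ mem_top g
    exact mem_CG.1 this
  · intro h
    rw [eq_top_iff]
    intro g _
    exact mem_CG.2 (mem_center_iff.1 h g)

theorem PEl.of_pgroup_card [Finite G] {p k : ℕ} {K : Subgroup G} (hK : Nat.card K = p ^ k) {g : G}
    (hg : g ∈ K) : PEl p g := by
  refine ⟨k, ?_⟩
  rw [← hK]
  apply orderOf_dvd_iff_pow_eq_one.1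
  have := orderOf_dvd_natCard (⟨g, hg⟩ : K)
  rwa [← Subgroup.orderOf_coe] at this

theorem isPGroup_of_forall {p : ℕ} {K : Subgroup G} (h : ∀ g ∈ K, PEl p g) : IsPGroup p K := by
  intro g
  obtain ⟨k, hk⟩ := h g g.2
  exact ⟨k, Subtype.ext (by simpa using hk)⟩

theorem PEl.isPGroup_zpowers {p : ℕ} {g : G} (h : PEl p g) : IsPGroup p (zpowers g) := by
  apply isPGroup_of_forall
  intro x hx
  obtain ⟨k, hk⟩ := h
  obtain ⟨m, rfl⟩ := mem_zpowers_iff.1 hx
  exact ⟨k, by rw [← zpow_natCast, ← zpow_mul, mul_comm, zpow_mul, zpow_natCast, hk, one_zpow]⟩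

section

variable [Finite G] {p : ℕ} [hp : Fact p.Prime]

theorem card_le_of_isPGroup {K C : Subgroup G} (hK : IsPGroup p K) (hKC : K ≤ C) :
    Nat.card K ≤ p ^ (Nat.card C).factorization p := by
  obtain ⟨k, hk⟩ := IsPGroup.iff_card.1 hK
  rw [hk]
  have h1 : p ^ k ∣ Nat.card C := hk ▸ card_dvd_of_le hKC
  exact Nat.pow_le_pow_right hp.out.pos
    ((hp.out.pow_dvd_iff_le_factorization Nat.card_pos.ne').1 h1)

/-- A subgroup containing a `p`-group of full order ... -/
theorem exists_pgroup_card (C : Subgroup G) : ∃ T : Subgroup G, T ≤ C ∧ IsPGroup p T ∧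
    Nat.card T = p ^ (Nat.card C).factorization p := by
  obtain ⟨Q⟩ : Nonempty (Sylow p C) := inferInstance
  refine ⟨(Q : Subgroup C).map C.subtype, map_subtype_le _, Q.2.map _, ?_⟩
  rw [Nat.card_congr ((Q : Subgroup C).equivMapOfInjective C.subtype
    C.subtype_injective).toEquiv.symm]
  exact Q.card_eq_multiplicity

theorem not_dvd_index_iff {C : Subgroup G} :
    ¬ p ∣ C.index ↔ (Nat.card C).factorization p = (Nat.card G).factorization p := by
  have h := congrArg (fun n => n.factorization p) C.card_mul_index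
  simp only [Nat.factorization_mul Nat.card_pos.ne' FiniteIndex.index_ne_zero,
    Finsupp.add_apply] at h
  rw [hp.out.dvd_iff_one_le_factorization FiniteIndex.index_ne_zero]
  omega

namespace Dec

variable {C P H : Subgroup G}

theorem mem_P (h : Dec p C P H) {g : G} (hg : g ∈ C) (hgp : PEl p g) : g ∈ P := by
  obtain ⟨x, hx, y, hy, rfl⟩ := h.mulm g hg
  have hc := h.comm x hx y hy
  have h1 : PEl p x := PEl.of_mem h.pgrp hx
  have h2 : PEl p y := by
    have : y = x⁻¹ * (x * y) := by group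
    rw [this]
    refine h1.inv.mul hgp ?_
    rw [inv_mul_cancel_left, hc, mul_assoc, mul_inv_cancel, mul_one]
  have h3 : y = 1 := h2.eq_one hp.out (not_dvd_orderOf_of_mem h.cop hy)
  rw [h3, mul_one]; exact hx

theorem mem_H (h : Dec p C P H) {g : G} (hg : g ∈ C) (hgp : ¬ p ∣ orderOf g) : g ∈ H := by
  obtain ⟨x, hx, y, hy, rfl⟩ := h.mulm g hg
  have hc : Commute x y := h.comm x hx y hy
  have h1 : PEl p x := PEl.of_mem h.pgrp hx
  have h2 : x ^ (orderOf (x * y) * Nat.card H) = 1 := by
    have e1 : (x * y) ^ (orderOf (x * y) * Nat.card H) = 1 := by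
      rw [pow_mul, pow_orderOf_eq_one, one_pow]
    have e2 : y ^ (orderOf (x * y) * Nat.card H) = 1 := by
      rw [mul_comm, pow_mul]
      have h4 : y ^ Nat.card H = 1 := by
        apply orderOf_dvd_iff_pow_eq_one.1
        have := orderOf_dvd_natCard (⟨y, hy⟩ : H)
        rwa [← Subgroup.orderOf_coe] at this
      rw [h4, one_pow]
    rw [hc.mul_pow, e2, mul_one] at e1
    exact e1
  have h3 : x = 1 := by
    apply h1.eq_one hp.out
    intro hd
    have := hd.trans (orderOf_dvd_of_pow_eq_one h2)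
    rcases hp.out.dvd_mul.1 this with h | h'
    · exact hgp h
    · exact h.cop h'
  rw [h3, one_mul]; exact hy

theorem mem_H_iff (h : Dec p C P H) {g : G} : g ∈ H ↔ g ∈ C ∧ ¬ p ∣ orderOf g :=
  ⟨fun hg => ⟨h.le' hg, not_dvd_orderOf_of_mem h.cop hg⟩, fun hg => h.mem_H hg.1 hg.2⟩

theorem mem_P_iff (h : Dec p C P H) {g : G} : g ∈ P ↔ g ∈ C ∧ PEl p g :=
  ⟨fun hg => ⟨h.le hg, PEl.of_mem h.pgrp hg⟩, fun hg => h.mem_P hg.1 hg.2⟩

theorem disj (h : Dec p C P H) {g : G} (hgP : g ∈ P) (hgH : g ∈ H) : g = 1 :=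
  (PEl.of_mem h.pgrp hgP).eq_one hp.out (not_dvd_orderOf_of_mem h.cop hgH)

theorem card_eq (h : Dec p C P H) : Nat.card C = Nat.card P * Nat.card H := by
  rw [← Nat.card_prod]
  symm
  refine Nat.card_congr (Equiv.ofBijective (fun z : P × H => (⟨z.1 * z.2,
    mul_mem (h.le z.1.2) (h.le' z.2.2)⟩ : C)) ⟨?_, ?_⟩)
  · rintro ⟨x, y⟩ ⟨x', y'⟩ hxy
    have e : (x : G) * y = x' * y' := congrArg Subtype.val hxy
    have e2 : (x' : G)⁻¹ * x = y' * (y : G)⁻¹ := by
      rw [inv_mul_eq_iff_eq_mul, ← mul_assoc, ← e, mul_inv_cancel_right]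
    have h1 : (x' : G)⁻¹ * x = 1 := h.disj (mul_mem (inv_mem x'.2) x.2)
      (e2 ▸ mul_mem y'.2 (inv_mem y.2))
    have h2 : (y' : G) * (y : G)⁻¹ = 1 := e2 ▸ h1
    rw [Prod.mk.injEq]
    exact ⟨Subtype.ext (inv_mul_eq_one.1 h1).symm, Subtype.ext (mul_inv_eq_one.1 h2).symm⟩
  · rintro ⟨g, hg⟩
    obtain ⟨x, hx, y, hy, rfl⟩ := h.mulm g hg
    exact ⟨⟨⟨x, hx⟩, ⟨y, hy⟩⟩, rfl⟩

theorem card_P (h : Dec p C P H) : Nat.card P = p ^ (Nat.card C).factorization p := by
  obtain ⟨k, hk⟩ := IsPGroup.iff_card.1 h.pgrp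
  rw [hk, h.card_eq, Nat.factorization_mul Nat.card_pos.ne' Nat.card_pos.ne', Finsupp.add_apply,
    Nat.factorization_eq_zero_of_not_dvd h.cop, hk, add_zero, hp.out.factorization_pow,
    Finsupp.single_eq_same]

theorem conj_H (h : Dec p C P H) {g : G} (hg : ∀ c ∈ C, g * c * g⁻¹ ∈ C) {u : G} (hu : u ∈ H) :
    g * u * g⁻¹ ∈ H :=
  h.mem_H (hg u (h.le' hu)) (not_dvd_orderOf_conj (not_dvd_orderOf_of_mem h.cop hu) g)

theorem conj_P (h : Dec p C P H) {g : G} (hg : ∀ c ∈ C, g * c * g⁻¹ ∈ C) {u : G} (hu : u ∈ P) :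
    g * u * g⁻¹ ∈ P :=
  h.mem_P (hg u (h.le hu)) ((PEl.of_mem h.pgrp hu).conj g)

end Dec

/-- All non-central elements have class size with `p`-part `p ^ a`, `a ≥ 1`. -/
structure Base (G : Type*) [Group G] (p a : ℕ) : Prop where
  pos : 0 < a
  ind : ∀ x : G, x ∉ center G → (CG x).index.factorization p = a
  ex : ∃ x : G, x ∉ center G

variable {a : ℕ}

theorem Base.card_add (hB : Base G p a) {x : G} (hx : x ∉ center G) :
    (Nat.card (CG x)).factorization p + a = (Nat.card G).factorization p := by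
  rw [← hB.ind x hx, ← (CG x).card_mul_index, Nat.factorization_mul Nat.card_pos.ne'
    FiniteIndex.index_ne_zero, Finsupp.add_apply]

theorem Base.card_eq (hB : Base G p a) {x y : G} (hx : x ∉ center G) (hy : y ∉ center G) :
    (Nat.card (CG x)).factorization p = (Nat.card (CG y)).factorization p := by
  have h1 := hB.card_add hx
  have h2 := hB.card_add hy
  omega

theorem Base.mem_center (hB : Base G p a) {x : G} (S : Sylow p G)
    (h : (S : Subgroup G) ≤ CG x) : x ∈ center G := by
  by_contra hx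
  have h1 := hB.card_add hx
  have h2 : ¬ p ∣ (CG x).index := fun hd => S.not_dvd_index (hd.trans (index_dvd_of_le h))
  rw [not_dvd_index_iff] at h2
  have := hB.pos
  omega

theorem Base.exists_pEl (hB : Base G p a) : ∃ w : G, PEl p w ∧ w ∉ center G := by
  by_contra hcon
  push Not at hcon
  obtain ⟨x, hx⟩ := hB.ex
  obtain ⟨S⟩ : Nonempty (Sylow p G) := inferInstance
  exact hx (hB.mem_center S fun s hs => center_le_CG x (hcon s (PEl.of_mem S.2 hs)))

/-- Every non-central element commutes with a non-central `p`-element. -/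
theorem Base.exists_comm_pEl (hB : Base G p a) {x : G} (hx : x ∉ center G) :
    ∃ y ∈ CG x, PEl p y ∧ y ∉ center G := by
  by_contra hcon
  push Not at hcon
  obtain ⟨w, hw, hwc⟩ := hB.exists_pEl
  obtain ⟨T, hTC, hT, hTcard⟩ := exists_pgroup_card (p := p) (CG x)
  have hTc : T ≤ center G := fun t ht => hcon t (hTC ht) (PEl.of_mem hT ht)
  have hle : T ⊔ zpowers w ≤ CG w :=
    sup_le (hTc.trans (center_le_CG w)) (zpowers_le.2 (self_mem_CG w))
  have hpg : IsPGroup p (T ⊔ zpowers w : Subgroup G) := by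
    refine IsPGroup.to_sup_of_normal_left' hT hw.isPGroup_zpowers ?_
    intro g _
    rw [mem_normalizer_iff]
    intro h
    constructor
    · intro hh
      rw [mem_center_iff.1 (hTc hh) g]; simpa using hh
    · intro hh
      have := mem_center_iff.1 (hTc hh) g
      have e : h = g⁻¹ * (g * h * g⁻¹) * g := by group
      rw [e]
      have e2 : g⁻¹ * (g * h * g⁻¹) * g = g * h * g⁻¹ := by
        rw [mul_assoc, ← this]; group
      rw [e2]; exact hh
  have h1 := card_le_of_isPGroup hpg hle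
  rw [hB.card_eq hwc hx, ← hTcard] at h1
  have h2 : T = T ⊔ zpowers w := eq_of_le_of_card_ge le_sup_left h1
  have h3 : w ∈ T := by rw [h2]; exact mem_sup_right (mem_zpowers w)
  exact hwc (hTc h3)

/-- **Centralizers of non-central `p`-elements are direct products.** -/
theorem Base.exists_dec (hB : Base G p a) {x : G} (hx : x ∉ center G) (hxp : PEl p x) :
    ∃ P H : Subgroup G, Dec p (CG x) P H := by
  have key : ∀ u : CG x, ¬ p ∣ orderOf u → ¬ p ∣ (centralizer ({u} : Set (CG x))).index := by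
    intro u hu
    have hu' : ¬ p ∣ orderOf (u : G) := by rwa [Subgroup.orderOf_coe]
    have hcomm : x * u = u * x := (mem_CG.1 u.2).symm
    have hC := centralizer_mul_of_pEl hp.out hcomm hxp hu'
    have hxu : x * u ∉ center G := by
      intro hc
      apply hx
      have h1 : x ∈ zpowers (x * (u : G)) :=
        mem_zpowers_mul_left hcomm (coprime_of_pEl hp.out hxp hu')
      exact (zpowers_le.2 hc) h1
    have h2 : (centralizer ({u} : Set (CG x))) = (CG (x * u)).subgroupOf (CG x) := by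
      ext z
      rw [mem_subgroupOf, mem_centralizer_singleton_iff]
      change _ ↔ (z : G) ∈ centralizer ({x * (u : G)} : Set G)
      rw [hC, mem_inf, mem_centralizer_singleton_iff, mem_centralizer_singleton_iff]
      constructor
      · intro h
        exact ⟨mem_CG.1 z.2, by simpa using congrArg Subtype.val h⟩
      · intro h
        exact Subtype.ext (by simpa using h.2)
    have h3 : CG (x * u) ≤ CG x := by
      change centralizer ({x * (u : G)} : Set G) ≤ _
      rw [hC]; exact inf_le_left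
    rw [h2]
    change ¬ p ∣ (CG (x * (u : G))).relIndex (CG x)
    have h4 := relIndex_mul_index h3
    intro hd
    have h0 : (CG (x * (u : G))).relIndex (CG x) ≠ 0 := by
      intro h; rw [h, zero_mul] at h4; exact FiniteIndex.index_ne_zero h4.symm
    have h5 := congrArg (fun n => n.factorization p) h4
    simp only [Nat.factorization_mul h0 FiniteIndex.index_ne_zero, Finsupp.add_apply] at h5
    rw [hB.ind _ hxu, hB.ind _ hx] at h5
    have := (hp.out.dvd_iff_one_le_factorization h0).1 hd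
    omega
  obtain ⟨P, H, hD⟩ := exists_dec_top key
  refine ⟨P.map (CG x).subtype, H.map (CG x).subtype, map_subtype_le _, map_subtype_le _,
    hD.pgrp.map _, ?_, ?_, ?_⟩
  · rw [Nat.card_congr (H.equivMapOfInjective (CG x).subtype
      (CG x).subtype_injective).toEquiv.symm]
    exact hD.cop
  · rintro _ ⟨s, hs, rfl⟩ _ ⟨t, ht, rfl⟩
    simpa using congrArg Subtype.val (hD.comm s hs t ht)
  · intro g hg
    obtain ⟨s, hs, t, ht, hst⟩ := hD.mulm ⟨g, hg⟩ (mem_top _)
    exact ⟨s, ⟨s, hs, rfl⟩, t, ⟨t, ht, rfl⟩, by simpa using congrArg Subtype.val hst⟩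

end

end Cfsg.Agent.H558.Cs
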