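import Mathlib
import Cfsg.Agent.H558.CsBase
import Cfsg.Agent.PermutationGroups.ZassReduction
import Cfsg.Agent.Characters.CNBasic

/-!
# Groups acting on a `p`-group and an `r`-group without outer fixed points (helper558, for S4284)
-/

set_option autoImplicit false
set_option linter.style.haveILetI false
set_option linter.unusedSectionVars false

namespace Cfsg.Agent.H558.Cs

open Subgroup

/-- `E` acts on the abelian `p`-group `V`; the fixed points of each non-identity element are `F`. -/
structure AFix (p : ℕ) {E V : Type*} [Group E] [Group V] (φ : E →* MulAut V)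
    (F : Subgroup V) : Prop where
  comm : ∀ x y : V, x * y = y * x
  pgrp : IsPGroup p V
  fixF : ∀ e : E, ∀ v ∈ F, φ e v = v
  fix : ∀ e : E, e ≠ 1 → ∀ v, φ e v = v → v ∈ F
  ne : F ≠ ⊤

namespace AFix

variable {p : ℕ} [hp : Fact p.Prime] {E V : Type*} [Group E] [Finite E] [Group V] [Finite V]
  {φ : E →* MulAut V} {F : Subgroup V}

/-- A normal subgroup of order prime to `p` is trivial. -/
theorem alpha (h : AFix p φ F) (hpE : p ∣ Nat.card E) (T : Subgroup E) [hTn : T.Normal]
    (hT : ¬ p ∣ Nat.card T) : T = ⊥ := by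
  classical
  by_contra hT1
  letI : CommGroup V := { ‹Group V› with mul_comm := h.comm }
  haveI : Fintype T := Fintype.ofFinite T
  let N : V →* V :=
    { toFun := fun v => ∏ τ : T, φ (τ : E) v
      map_one' := by simp
      map_mul' := by intro x y; simp [Finset.prod_mul_distrib] }
  have hNdef : ∀ v, N v = ∏ τ : T, φ (τ : E) v := fun v => rfl
  obtain ⟨τ0, hτ0, hτ1⟩ : ∃ x ∈ T, x ≠ (1 : E) := by
    by_contra hcon
    push Not at hcon
    exact hT1 ((eq_bot_iff_forall T).2 hcon)
  have hNF : ∀ v, N v ∈ F := by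
    intro v
    refine h.fix τ0 hτ1 _ ?_
    rw [hNdef, map_prod]
    refine Fintype.prod_equiv (Equiv.mulLeft (⟨τ0, hτ0⟩ : T)) _ _ ?_
    intro τ
    simp [map_mul, MulAut.mul_apply]
  have hNf : ∀ f ∈ F, N f = f ^ Nat.card T := by
    intro f hf
    rw [hNdef]
    have h1 : ∀ τ : T, φ (τ : E) f = f := fun τ => h.fixF (τ : E) f hf
    simp only [h1]
    simp [Nat.card_eq_fintype_card]
  have hker_F : ∀ f ∈ F, f ∈ N.ker → f = 1 := by
    intro f hf hk
    rw [MonoidHom.mem_ker, hNf f hf] at hk
    obtain ⟨k, hk2⟩ := h.pgrp f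
    have h1 : orderOf f ∣ Nat.card T := orderOf_dvd_of_pow_eq_one hk
    exact PEl.eq_one hp.out ⟨k, hk2⟩ (fun h2 => hT (h2.trans h1))
  have hker : N.ker ≠ ⊥ := by
    intro hk
    apply h.ne
    have hinj : Function.Injective (fun v : V => (⟨N v, hNF v⟩ : F)) := by
      intro x y hxy
      exact (MonoidHom.ker_eq_bot_iff N).1 hk (congrArg Subtype.val hxy)
    apply eq_top_of_card_eq
    exact le_antisymm (Nat.card_le_card_of_injective _ Subtype.val_injective)
      (Nat.card_le_card_of_injective _ hinj)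
  have hinv : ∀ (e : E) (v : V), N (φ e v) = φ e (N v) := by
    intro e v
    rw [hNdef, hNdef, map_prod]
    symm
    refine Fintype.prod_equiv (MulAut.conjNormal e : T ≃* T).toEquiv _ _ ?_
    intro τ
    rw [← MulAut.mul_apply, ← MulAut.mul_apply, ← map_mul, ← map_mul]
    congr 2
    simp [MulAut.conjNormal_apply]
  obtain ⟨e, he⟩ := exists_prime_orderOf_dvd_card' p hpE
  have he1 : e ≠ 1 := by
    intro h1
    rw [h1, orderOf_one] at he
    exact hp.out.one_lt.ne he
  have hmap : ∀ g : E, ∀ v ∈ N.ker, φ g v ∈ N.ker := by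
    intro g v hv
    rw [MonoidHom.mem_ker] at hv ⊢
    rw [hinv, hv, map_one]
  letI act : MulAction (zpowers e) N.ker :=
    { smul := fun g v => ⟨φ (g : E) v, hmap g v v.2⟩
      one_smul := by
        intro v
        apply Subtype.ext
        change φ ((1 : zpowers e) : E) v = v
        simp
      mul_smul := by
        intro g g' v
        apply Subtype.ext
        change φ ((g * g' : zpowers e) : E) v = φ (g : E) (φ (g' : E) v)
        rw [← MulAut.mul_apply, ← map_mul]; rfl }
  have hsmul : ∀ (g : zpowers e) (v : N.ker), ((g • v : N.ker) : V) = φ (g : E) v :=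
    fun g v => rfl
  have hpe : IsPGroup p (zpowers e) := by
    have : PEl p e := ⟨1, by rw [pow_one, ← he]; exact pow_orderOf_eq_one e⟩
    exact this.isPGroup_zpowers
  have hpd : p ∣ Nat.card N.ker := by
    obtain ⟨k, hk⟩ := IsPGroup.iff_card.1 (h.pgrp.to_subgroup N.ker)
    rw [hk]
    apply dvd_pow_self
    rintro rfl
    rw [pow_zero] at hk
    exact hker (eq_bot_of_card_eq _ hk)
  obtain ⟨w, hw, hw1⟩ := hpe.exists_fixed_point_of_prime_dvd_card_of_fixed_point N.ker hpd
    (a := 1) (by
      intro g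
      apply Subtype.ext
      rw [hsmul]
      simp)
  have h1 : φ e w = w := by
    have := hw ⟨e, mem_zpowers e⟩
    exact congrArg Subtype.val this
  exact hw1 (Subtype.ext (hker_F w (h.fix e he1 w h1) w.2)).symm

/-- Elements of order prime to `p` have trivial fixed points modulo `F`. -/
theorem beta (h : AFix p φ F) {e : E} (he : e ≠ 1) (hep : ¬ p ∣ orderOf e) {v : V}
    (hv : v⁻¹ * φ e v ∈ F) : v ∈ F := by
  set f := v⁻¹ * φ e v with hf
  have h0 : φ e v = v * f := by rw [hf]; group
  have h1 : ∀ n : ℕ, φ (e ^ n) v = v * f ^ n := by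
    intro n
    induction n with
    | zero => simp
    | succ n ih =>
      rw [pow_succ, map_mul, MulAut.mul_apply, h0, map_mul, ih, h.fixF _ f hv, mul_assoc,
        ← pow_succ]
  have h2 := h1 (orderOf e)
  rw [pow_orderOf_eq_one, map_one, MulAut.one_apply] at h2
  have h3 : f ^ orderOf e = 1 := by
    have : v * f ^ orderOf e = v * 1 := by rw [mul_one]; exact h2.symm
    exact mul_left_cancel this
  have h4 : f = 1 := PEl.eq_one hp.out (h.pgrp f) (fun hd =>
    hep (hd.trans (orderOf_dvd_of_pow_eq_one h3)))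
  exact h.fix e he v (by rw [h0, h4, mul_one])

theorem normal (h : AFix p φ F) : F.Normal :=
  ⟨fun n hn g => by rwa [h.comm g n, mul_inv_cancel_right]⟩

theorem map_mem (h : AFix p φ F) (e : E) : F.map ((φ e : V ≃* V) : V →* V) = F := by
  ext v
  constructor
  · rintro ⟨w, hw, rfl⟩
    have := h.fixF e w hw
    change φ e w ∈ F
    rw [this]; exact hw
  · intro hv
    exact ⟨v, hv, h.fixF e v hv⟩

/-- the action on `V / F` -/
noncomputable def qact (h : AFix p φ F) [F.Normal] : E →* MulAut (V ⧸ F) where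
  toFun e := QuotientGroup.congr F F (φ e) (h.map_mem e)
  map_one' := by
    ext x
    induction x using QuotientGroup.induction_on with
    | H z => simp
  map_mul' e f := by
    ext x
    induction x using QuotientGroup.induction_on with
    | H z => simp

theorem qact_mk (h : AFix p φ F) [F.Normal] (e : E) (v : V) :
    h.qact e (v : V ⧸ F) = ((φ e v : V) : V ⧸ F) := rfl

theorem qact_fix (h : AFix p φ F) [F.Normal] {e : E} (he : e ≠ 1) (hep : ¬ p ∣ orderOf e)
    {x : V ⧸ F} (hx : h.qact e x = x) : x = 1 := by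
  induction x using QuotientGroup.induction_on with
  | H v =>
    rw [qact_mk] at hx
    rw [QuotientGroup.eq_one_iff]
    exact h.beta he hep ((QuotientGroup.eq).1 hx.symm)

theorem nontrivial_quot (h : AFix p φ F) : Nontrivial (V ⧸ F) := by
  have hF := h.ne
  by_contra hcon
  rw [not_nontrivial_iff_subsingleton] at hcon
  exact hF (QuotientGroup.subgroup_eq_top_of_subsingleton F hcon)

theorem quot_comm (h : AFix p φ F) [F.Normal] (x y : V ⧸ F) : x * y = y * x := by
  induction x using QuotientGroup.induction_on with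
  | H v =>
    induction y using QuotientGroup.induction_on with
    | H w => rw [← QuotientGroup.mk_mul, ← QuotientGroup.mk_mul, h.comm]

/-- For odd primes `t ≠ p` the Sylow `t`-subgroups of `E` are cyclic. -/
theorem sylow_cyclic (h : AFix p φ F) {t : ℕ} [ht : Fact t.Prime] (htp : t ≠ p) (ht2 : t ≠ 2)
    (S : Sylow t E) : IsCyclic S := by
  haveI := h.normal
  haveI := h.nontrivial_quot
  letI : CommGroup (V ⧸ F) := { (inferInstance : Group (V ⧸ F)) with mul_comm := h.quot_comm }
  obtain ⟨Q⟩ : Nonempty (Sylow t (S : Subgroup E)) := inferInstance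
  have hQ : (Q : Subgroup (S : Subgroup E)) = ⊤ := by
    have h1 : (⊤ : Subgroup (S : Subgroup E)) ≤ Q := by
      have : (Q : Subgroup (S : Subgroup E)) = ⊤ :=
        (Q.3 ((S.2).to_subgroup ⊤) le_top).symm
      rw [this]
    exact top_le_iff.1 h1
  have hfix : ∀ g : (S : Subgroup E), g ≠ 1 → ∀ v : V ⧸ F,
      (h.qact.comp (S : Subgroup E).subtype) g v = v → v = 1 := by
    intro g hg v hv
    refine h.qact_fix (e := (g : E)) (fun h1 => hg (Subtype.ext h1)) ?_ hv
    obtain ⟨k, hk⟩ := (PEl.of_mem S.2 g.2).orderOf_dvd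
    intro hd
    have := hp.out.dvd_of_dvd_pow (hd.trans hk)
    exact htp ((Nat.prime_dvd_prime_iff_eq hp.out ht.out).1 this).symm
  rcases Cfsg.Agent.PermutationGroups.ZassReduction.sylow_cyclic_or_quaternion
    (h.qact.comp (S : Subgroup E).subtype) hfix t Q with h1 | ⟨h1, -⟩
  · have h2 : IsCyclic (Q : Subgroup (S : Subgroup E)) := h1
    rw [hQ] at h2
    exact (topEquiv.isCyclic).1 h2
  · exact absurd h1 ht2

/-- An involution inverts `V / F` if `p` is odd. -/
theorem inv_of_involution (h : AFix p φ F) (hp2 : p ≠ 2) [F.Normal] {e : E} (he : orderOf e = 2)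
    (x : V ⧸ F) : h.qact e x = x⁻¹ := by
  have he1 : e ≠ 1 := by
    intro h1; rw [h1, orderOf_one] at he; omega
  have hep : ¬ p ∣ orderOf e := by
    rw [he]
    intro hd
    exact hp2 ((Nat.prime_dvd_prime_iff_eq hp.out Nat.prime_two).1 hd)
  have h2 : ∀ y, h.qact e (h.qact e y) = y := by
    intro y
    rw [← MulAut.mul_apply, ← map_mul, ← pow_two, ← he, pow_orderOf_eq_one, map_one]
    rfl
  have h1 : h.qact e (x * h.qact e x) = x * h.qact e x := by
    rw [map_mul, h2, h.quot_comm]
  have h3 := h.qact_fix he1 hep h1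
  exact eq_inv_of_mul_eq_one_right h3

section Two

variable {r : ℕ} [hr : Fact r.Prime] {W : Type*} [Group W] [Finite W] {ψ : E →* MulAut W}
  {F' : Subgroup W}

theorem false_of_even (h : AFix p φ F) (h' : AFix r ψ F') (hpr : p ≠ r)
    (hpE : p ∣ Nat.card E) (hrE : r ∣ Nat.card E) (hr2 : r ≠ 2) (h2 : 2 ∣ Nat.card E) : False := by
  haveI := h'.normal
  haveI := h'.nontrivial_quot
  obtain ⟨e, he⟩ := exists_prime_orderOf_dvd_card' 2 h2
  have hT : h'.qact.ker = ⊥ := by
    refine h.alpha hpE _ ?_
    intro hd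
    obtain ⟨t, ht⟩ := exists_prime_orderOf_dvd_card' p hd
    have ht' : orderOf (t : E) = p := by rw [Subgroup.orderOf_coe, ht]
    have ht1 : (t : E) ≠ 1 := by
      intro h1; rw [h1, orderOf_one] at ht'; exact hp.out.one_lt.ne ht'
    have htr : ¬ r ∣ orderOf (t : E) := by
      rw [ht']
      intro hd
      exact hpr ((Nat.prime_dvd_prime_iff_eq hr.out hp.out).1 hd).symm
    obtain ⟨x, hx⟩ := exists_ne (1 : W ⧸ F')
    apply hx
    apply h'.qact_fix ht1 htr
    have := t.2
    rw [MonoidHom.mem_ker] at this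
    rw [this]; rfl
  have hinj : Function.Injective h'.qact := (MonoidHom.ker_eq_bot_iff _).1 hT
  have hcen : e ∈ center E := by
    rw [mem_center_iff]
    intro g
    apply hinj
    ext x
    rw [map_mul, map_mul, MulAut.mul_apply, MulAut.mul_apply,
      h'.inv_of_involution hr2 he, h'.inv_of_involution hr2 he, map_inv]
  haveI : (zpowers e).Normal := ⟨by
    intro n hn g
    have : n ∈ center E := (zpowers_le.2 hcen) hn
    rw [mem_center_iff.1 this g, mul_inv_cancel_right]; exact hn⟩
  have h3 := h'.alpha hrE (zpowers e) (by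
    rw [Nat.card_zpowers, he]
    intro hd
    exact hr2 ((Nat.prime_dvd_prime_iff_eq hr.out Nat.prime_two).1 hd))
  rw [zpowers_eq_bot] at h3
  rw [h3, orderOf_one] at he
  omega

theorem false_of_odd (h : AFix p φ F) (h' : AFix r ψ F') (hpr : p ≠ r)
    (hpE : p ∣ Nat.card E) (hrE : r ∣ Nat.card E) (h2 : ¬ 2 ∣ Nat.card E) : False := by
  haveI : IsZGroup E := ⟨by
    intro t ht S
    haveI : Fact t.Prime := ⟨ht⟩
    by_cases ht2 : t = 2
    · subst ht2
      have h1 : Nat.card S = 1 := by
        rw [S.card_eq_multiplicity, Nat.factorization_eq_zero_of_not_dvd h2, pow_zero]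
      haveI : Subsingleton S := (Nat.card_eq_one_iff_unique.1 h1).1
      infer_instance
    · by_cases htp : t = p
      · exact h'.sylow_cyclic (htp ▸ hpr) ht2 S
      · exact h.sylow_cyclic htp ht2 S⟩
  haveI : Nontrivial E := by
    by_contra hcon
    rw [not_nontrivial_iff_subsingleton] at hcon
    rw [Nat.card_unique] at hpE
    exact hp.out.one_lt.ne' (Nat.dvd_one.1 hpE)
  obtain ⟨q, hq, N, hN, hN1, -, hNq⟩ :=
    Cfsg.Agent.Characters.CNBasic.exists_normal_elementary E
  have key : ∀ s : ℕ, s.Prime → s ≠ q → ¬ s ∣ Nat.card N := by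
    intro s hs hsq hd
    haveI : Fact s.Prime := ⟨hs⟩
    obtain ⟨x, hx⟩ := exists_prime_orderOf_dvd_card' s hd
    have h1 : (x : E) ^ q = 1 := hNq x x.2
    have h3 : x ^ q = 1 := Subtype.ext (by simpa using h1)
    have h4 := orderOf_dvd_of_pow_eq_one h3
    rw [hx] at h4
    exact hsq ((Nat.prime_dvd_prime_iff_eq hs hq).1 h4)
  by_cases hqp : p = q
  · exact hN1 (h'.alpha hrE N (key r hr.out (fun h => hpr (hqp.trans h.symm))))
  · exact hN1 (h.alpha hpE N (key p hp.out hqp))

/-- The abstract statement behind "`m` is a prime power". -/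
theorem no_two (h : AFix p φ F) (h' : AFix r ψ F') (hpr : p ≠ r)
    (hpE : p ∣ Nat.card E) (hrE : r ∣ Nat.card E) : False := by
  by_cases h2 : 2 ∣ Nat.card E
  · by_cases hr2 : r = 2
    · exact false_of_even h' h hpr.symm hrE hpE (fun h => hpr (h.trans hr2.symm)) h2
    · exact false_of_even h h' hpr hpE hrE hr2 h2
  · exact false_of_odd h h' hpr hpE hrE h2

end Two

end AFix

end Cfsg.Agent.H558.Cs
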