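import Mathlib
import Cfsg.Agent.H558.CsSpec
import Cfsg.Agent.H558.CsTwo

/-!
# No two primes (helper558, for S4284)
-/

set_option autoImplicit false
set_option linter.unusedSectionVars false
set_option linter.style.haveILetI false

namespace Cfsg.Agent.H558.Cs

open Subgroup

variable {G : Type*} [Group G] [Finite G]

theorem not_dvd_of_pEl {p r : ℕ} [hp : Fact p.Prime] [hr : Fact r.Prime] (hpr : p ≠ r) {x : G}
    (hx : PEl p x) : ¬ r ∣ orderOf x := by
  intro hd
  obtain ⟨k, hk⟩ := hx.orderOf_dvd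
  exact hpr ((Nat.prime_dvd_prime_iff_eq hr.out hp.out).1
    (hr.out.dvd_of_dvd_pow (hd.trans hk))).symm

theorem dvd_card_of_pEl {E : Type*} [Group E] [Finite E] {p : ℕ} [hp : Fact p.Prime] {e : E}
    (he : PEl p e) (he1 : e ≠ 1) : p ∣ Nat.card E := by
  by_contra hd
  apply he1
  refine he.eq_one hp.out ?_
  intro h
  exact hd (h.trans (orderOf_dvd_natCard e))

/-- fixed points of an element outside the full `p`-part of a centralizer are central -/
theorem Base.fix_of_not_mem {p a : ℕ} [hp : Fact p.Prime] (hB : Base G p a) {P : Sylow p G}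
    {x : G} (hx : x ∉ center G) {P0 H : Subgroup G} (hD : Dec p (CG x) P0 H)
    (hle : P0 ≤ (P : Subgroup G)) {g u : G} (hg : g ∈ P)
    (hg0 : g ∉ P0) (hu : ∀ y ∈ P0, y * u = u * y) (hgu : g * u = u * g) : u ∈ center G := by
  by_contra huc
  have hle' : P0 ⊔ zpowers g ≤ CG u := by
    apply sup_le
    · intro y hy
      exact mem_CG.2 (hu y hy)
    · exact zpowers_le.2 (mem_CG.2 hgu)
  have hpg : IsPGroup p (P0 ⊔ zpowers g : Subgroup G) :=
    P.2.to_le (sup_le hle (zpowers_le.2 hg))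
  have h1 := card_le_of_isPGroup hpg hle'
  rw [hB.card_eq huc hx, ← hD.card_P] at h1
  have h2 : P0 = P0 ⊔ zpowers g := eq_of_le_of_card_ge le_sup_left h1
  apply hg0
  rw [h2]
  exact mem_sup_right (mem_zpowers g)

theorem A1 {p r b : ℕ} [hp : Fact p.Prime] [hr : Fact r.Prime] (hpr : p ≠ r) (hB : Base G r b)
    {x z : G} (hxp : PEl p x) (hx : x ∉ center G) (hz : z ∉ center G)
    (hzx : z ∈ CG x) {P0 H R0 K : Subgroup G} (hD : Dec p (CG x) P0 H)
    (hD' : Dec r (CG z) R0 K) (hn : Group.IsNilpotent H) :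
    R0 ≤ CG x ∧ ∀ w ∈ CG x, PEl r w → w ∈ R0 := by
  have hxz : x ∈ CG z := mem_CG.2 (mem_CG.1 hzx).symm
  have hxK : x ∈ K := hD'.mem_H hxz (not_dvd_of_pEl hpr hxp)
  have h1 : R0 ≤ CG x := fun y hy => mem_CG.2 (hD'.comm y hy x hxK)
  have h2 : R0 ≤ H := fun y hy =>
    hD.mem_H (h1 hy) (not_dvd_of_pEl (fun h => hpr h.symm) (PEl.of_mem hD'.pgrp hy))
  refine ⟨h1, ?_⟩
  intro w hw hwr
  have hwH : w ∈ H := hD.mem_H hw (not_dvd_of_pEl (fun h => hpr h.symm) hwr)
  have hcard : Nat.card (R0.subgroupOf H) = r ^ (Nat.card H).factorization r := by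
    rw [Nat.card_congr (subgroupOfEquivOfLe h2).toEquiv, hD'.card_P, hB.card_eq hz hx,
      hD.card_eq, Nat.factorization_mul Nat.card_pos.ne' Nat.card_pos.ne', Finsupp.add_apply,
      hD.card_P, hp.out.factorization_pow, Finsupp.single_eq_of_ne hpr.symm, zero_add]
  let S : Sylow r H := Sylow.ofCard (R0.subgroupOf H) hcard
  have hSn : (S : Subgroup H).Normal :=
    (((Group.isNilpotent_of_finite_tfae (G := H)).out 0 3 : _ ↔ ∀ (q : ℕ) (_ : Fact q.Prime) (S : Sylow q H), (S : Subgroup H).Normal).1 hn) r hr S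
  haveI := Sylow.unique_of_normal S hSn
  have hwp : PEl r (⟨w, hwH⟩ : H) := by
    obtain ⟨k, hk⟩ := hwr
    exact ⟨k, Subtype.ext (by simpa using hk)⟩
  obtain ⟨Q, hQ⟩ := hwp.isPGroup_zpowers.exists_le_sylow
  have hQS : Q = S := Subsingleton.elim _ _
  have h3 : (⟨w, hwH⟩ : H) ∈ (S : Subgroup H) := hQS ▸ hQ (mem_zpowers _)
  exact mem_subgroupOf.1 h3

theorem A2 {p r b : ℕ} [hp : Fact p.Prime] [hr : Fact r.Prime] (hpr : p ≠ r) (hB : Base G r b)
    {x z : G} (hxp : PEl p x) (hx : x ∉ center G) (hz : z ∉ center G)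
    (hzx : z ∈ CG x) (hzr : PEl r z) {P0 H R0 K : Subgroup G} (hD : Dec p (CG x) P0 H)
    (hD' : Dec r (CG z) R0 K) (hn : Group.IsNilpotent H) :
    (∀ u ∈ R0, ∀ w ∈ R0, u * w = w * u) ∧ ∀ z' ∈ R0, z' ∉ center G → CG z' = CG z := by
  obtain ⟨h1, h2⟩ := A1 hpr hB hxp hx hz hzx hD hD' hn
  have key : ∀ z' ∈ R0, z' ∉ center G → ∃ K', Dec r (CG z') R0 K' := by
    intro z' hz' hz'c
    have hz'r : PEl r z' := PEl.of_mem hD'.pgrp hz'
    obtain ⟨R1, K1, hD1⟩ := hB.exists_dec hz'c hz'r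
    obtain ⟨h3, h4⟩ := A1 hpr hB hxp hx hz'c (h1 hz') hD hD1 hn
    have h5 : R1 = R0 := by
      apply le_antisymm
      · exact fun w hw => h2 w (h3 hw) (PEl.of_mem hD1.pgrp hw)
      · exact fun w hw => h4 w (h1 hw) (PEl.of_mem hD'.pgrp hw)
    exact ⟨K1, h5 ▸ hD1⟩
  have hab : ∀ u ∈ R0, ∀ w ∈ R0, u * w = w * u := by
    intro u hu w hw
    by_cases huc : u ∈ center G
    · exact ((mem_center_iff.1 huc w)).symm
    · obtain ⟨K', hK'⟩ := key u hu huc
      exact (mem_CG.1 (hK'.le hw)).symm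
  refine ⟨hab, ?_⟩
  have hle : ∀ (s t : G) (K' : Subgroup G), s ∈ R0 → t ∈ R0 → Dec r (CG s) R0 K' →
      CG s ≤ CG t := by
    intro s t K' hs ht hDs g hg
    obtain ⟨u, hu, v, hv, rfl⟩ := hDs.mulm g hg
    rw [mem_CG]
    have e1 := hab u hu t ht
    have e2 := hDs.comm t ht v hv
    calc u * v * t = u * (v * t) := by group
      _ = u * t * v := by rw [← e2]; group
      _ = t * (u * v) := by rw [e1]; group
  intro z' hz' hz'c
  obtain ⟨K', hK'⟩ := key z' hz' hz'c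
  have hzR : z ∈ R0 := hD'.mem_P (self_mem_CG z) hzr
  exact le_antisymm (hle z' z K' hz' hzR hK') (hle z z' K hzR hz' hD')

theorem A3 {p r b : ℕ} [hp : Fact p.Prime] [hr : Fact r.Prime] (hpr : p ≠ r) (hB : Base G r b)
    {x z : G} (hxp : PEl p x) (hx : x ∉ center G) (hz : z ∉ center G)
    (hzx : z ∈ CG x) (hzr : PEl r z) {P0 H R0 K : Subgroup G} (hD : Dec p (CG x) P0 H)
    (hD' : Dec r (CG z) R0 K) (hn : Group.IsNilpotent H) (hP0 : P0 ≤ CG z) :
    CG x ≤ CG z := by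
  obtain ⟨h1, h2⟩ := A1 hpr hB hxp hx hz hzx hD hD' hn
  obtain ⟨hab, h3⟩ := A2 hpr hB hxp hx hz hzx hzr hD hD' hn
  have hzR : z ∈ R0 := hD'.mem_P (self_mem_CG z) hzr
  have hzH : z ∈ H := hD.mem_H hzx (not_dvd_of_pEl (fun h => hpr h.symm) hzr)
  intro g hg
  obtain ⟨u, hu, v, hv, rfl⟩ := hD.mulm g hg
  refine mul_mem (hP0 hu) ?_
  obtain ⟨c, d, hcd, hcd', hc, hd, hcz, hdz⟩ := exists_parts hr.out v
  have hcH : c ∈ H := (zpowers_le.2 hv) hcz
  have hdH : d ∈ H := (zpowers_le.2 hv) hdz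
  rw [hcd]
  refine mul_mem (mem_CG.2 (hab c (h2 c (hD.le' hcH) hc) z hzR)) (mem_CG.2 ?_)
  have h4 := Cfsg.Agent.Characters.CNBasic.commute_of_coprime hn (x := (⟨z, hzH⟩ : H))
    (y := (⟨d, hdH⟩ : H)) (by
      have := coprime_of_pEl hr.out hzr hd
      rwa [← Subgroup.orderOf_coe, ← Subgroup.orderOf_coe])
  exact (congrArg Subtype.val h4).symm

/-- an element outside `R0` normalizing it, with `r`-th power in `R0` -/
theorem exists_normalizing {r : ℕ} [hr : Fact r.Prime] {R : Subgroup G} (hR : IsPGroup r R)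
    {R0 : Subgroup G} (hle : R0 ≤ R) (hlt : R0 ≠ R) :
    ∃ g ∈ R, g ∉ R0 ∧ (∀ u ∈ R0, g * u * g⁻¹ ∈ R0) ∧ g ^ r ∈ R0 := by
  haveI : Group.IsNilpotent R := hR.isNilpotent
  have h1 : R0.subgroupOf R < ⊤ := by
    rw [lt_top_iff_ne_top]
    intro h
    exact hlt (le_antisymm hle (subgroupOf_eq_top.1 h))
  have h2 := Group.normalizerCondition_of_isNilpotent (G := R) _ h1
  obtain ⟨g, hg, hg0⟩ := SetLike.exists_of_lt h2
  have hnorm : ∀ n : ℕ, ∀ u ∈ R0, ((g : G) ^ n) * u * ((g : G) ^ n)⁻¹ ∈ R0 := by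
    intro n u hu
    have h3 : g ^ n ∈ normalizer ((R0.subgroupOf R : Subgroup R) : Set R) := pow_mem hg n
    have h4 := (mem_normalizer_iff.1 h3 ⟨u, hle hu⟩).1 (mem_subgroupOf.2 hu)
    have h5 := mem_subgroupOf.1 h4
    simpa using h5
  have hex : ∃ k : ℕ, (g : G) ^ r ^ k ∈ R0 := by
    obtain ⟨k, hk⟩ := PEl.of_mem hR g.2
    exact ⟨k, hk ▸ one_mem _⟩
  classical
  set j := Nat.find hex with hj
  have hj0 : j ≠ 0 := by
    intro h
    have := Nat.find_spec hex
    rw [← hj, h, pow_zero, pow_one] at this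
    exact hg0 (mem_subgroupOf.2 this)
  obtain ⟨i, hi⟩ := Nat.exists_eq_succ_of_ne_zero hj0
  refine ⟨(g : G) ^ r ^ i, pow_mem g.2 _, Nat.find_min hex (by
    rw [← hj, hi]; exact Nat.lt_succ_self i), hnorm _, ?_⟩
  rw [← pow_mul, ← pow_succ]
  have := Nat.find_spec hex
  rwa [← hj, hi] at this

/-- **No two primes.** -/
theorem Base.no_two {p r a b : ℕ} [hp : Fact p.Prime] [hr : Fact r.Prime] (hpr : p ≠ r)
    (hA : Base G p a) (hB : Base G r b) : False := by
  obtain ⟨P⟩ : Nonempty (Sylow p G) := inferInstance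
  obtain ⟨x, hx⟩ := hA.exists_spec P
  obtain ⟨P0, H, hD⟩ := hA.exists_dec hx.nc hx.pEl
  have hnH := Spec.nilp hA hx hD
  obtain ⟨z, hzx, hzr, hz⟩ := hB.exists_comm_pEl hx.nc
  obtain ⟨R0, K, hD'⟩ := hB.exists_dec hz hzr
  obtain ⟨h1, h2⟩ := A1 hpr hB hx.pEl hx.nc hz hzx hD hD' hnH
  obtain ⟨h3, h4⟩ := A2 hpr hB hx.pEl hx.nc hz hzx hzr hD hD' hnH
  have hxz : x ∈ CG z := mem_CG.2 (mem_CG.1 hzx).symm
  -- the Sylow `r`-subgroup
  obtain ⟨R, hR⟩ := hD'.pgrp.exists_le_sylow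
  have hR0 : R0 ≠ (R : Subgroup G) := by
    intro h
    apply hz
    apply hB.mem_center R
    rw [← h]; exact hD'.le
  obtain ⟨g, hgR, hg0, hgn, hgr⟩ := exists_normalizing R.2 hR hR0
  have hzR : z ∈ R0 := hD'.mem_P (self_mem_CG z) hzr
  have hgn' : ∀ u ∈ R0, g⁻¹ * u * g⁻¹⁻¹ ∈ R0 := by
    have h5 : g ∈ normalizer (R0 : Set G) := mem_normalizer_fintype hgn
    intro u hu
    exact (mem_normalizer_iff.1 (inv_mem h5) u).1 hu
  have hgC : ∀ c ∈ CG z, g * c * g⁻¹ ∈ CG z := by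
    intro c hc
    have h5 := hgn' z hzR
    have h6 : g⁻¹ * z * g⁻¹⁻¹ ∉ center G := by
      intro h
      apply hz
      have h7 := mem_center_iff.1 h g
      have : z = g⁻¹ * z * g⁻¹⁻¹ := by
        have e : g * (g⁻¹ * z * g⁻¹⁻¹) = z * g := by group
        rw [e] at h7
        exact mul_right_cancel h7
      rw [this]; exact h
    have h7 := h4 _ h5 h6
    rw [← h7, mem_CG] at hc
    rw [mem_CG]
    calc g * c * g⁻¹ * z = g * (c * (g⁻¹ * z * g⁻¹⁻¹)) * g⁻¹ := by group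
      _ = g * ((g⁻¹ * z * g⁻¹⁻¹) * c) * g⁻¹ := by rw [hc]
      _ = z * (g * c * g⁻¹) := by group
  have hnK : Group.IsNilpotent K := by
    refine isNilpotent_of_fpf (q := r) K hD'.cop (t := g) (PEl.of_mem R.2 hgR)
      (fun u hu => hD'.conj_H hgC hu) (fun u hu => hD'.comm _ hgr u hu) ?_
    intro u hu hgu
    exact hB.fix_of_not_mem hz hD' hR hgR hg0 (fun y hy => hD'.comm y hy u hu) hgu
  obtain ⟨k1, k2⟩ := A1 hpr.symm hA hzr hz hx.nc hxz hD' hD hnK
  obtain ⟨k3, k4⟩ := A2 hpr.symm hA hzr hz hx.nc hxz hx.pEl hD' hD hnK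
  have hC : CG x = CG z := le_antisymm (A3 hpr hB hx.pEl hx.nc hz hzx hzr hD hD' hnH k1)
    (A3 hpr.symm hA hzr hz hx.nc hxz hx.pEl hD' hD hnK h1)
  have hxP : x ∈ P0 := hD.mem_P (self_mem_CG x) hx.pEl
  -- the normalizer of `C`
  set N : Subgroup G := normalizer ((CG x : Subgroup G) : Set G) with hN
  have hCN : CG x ≤ N := le_normalizer
  haveI : ((CG x).subgroupOf N).Normal := Subgroup.normal_in_normalizer
  have hNP : N ≤ normalizer ((P0 : Subgroup G) : Set G) := by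
    apply le_normalizer_of
    intro g hg y hy
    exact hD.conj_P (fun c hc => (mem_normalizer_iff.1 hg c).1 hc) hy
  have hNR : N ≤ normalizer ((R0 : Subgroup G) : Set G) := by
    apply le_normalizer_of
    intro g hg y hy
    refine hD'.conj_P (fun c hc => ?_) hy
    rw [← hC] at hc ⊢
    exact (mem_normalizer_iff.1 hg c).1 hc
  have hφ : (CG x).subgroupOf N ≤ (P0.normalizerMonoidHom.comp (inclusion hNP)).ker := by
    intro c hc
    rw [MonoidHom.mem_ker]
    ext v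
    change (c : G) * v * (c : G)⁻¹ = v
    have h5 : (c : G) ∈ CG x := mem_subgroupOf.1 hc
    obtain ⟨u, hu, w, hw, hcu⟩ := hD.mulm _ h5
    rw [mul_inv_eq_iff_eq_mul, hcu]
    have e1 := k3 u hu v v.2
    have e2 := hD.comm v v.2 w hw
    calc u * w * v = u * (w * v) := by group
      _ = u * v * w := by rw [← e2]; group
      _ = v * (u * w) := by rw [e1]; group
  have hψ : (CG x).subgroupOf N ≤ (R0.normalizerMonoidHom.comp (inclusion hNR)).ker := by
    intro c hc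
    rw [MonoidHom.mem_ker]
    ext v
    change (c : G) * v * (c : G)⁻¹ = v
    have h5 : (c : G) ∈ CG z := hC ▸ mem_subgroupOf.1 hc
    obtain ⟨u, hu, w, hw, hcu⟩ := hD'.mulm _ h5
    rw [mul_inv_eq_iff_eq_mul, hcu]
    have e1 := h3 u hu v v.2
    have e2 := hD'.comm v v.2 w hw
    calc u * w * v = u * (w * v) := by group
      _ = u * v * w := by rw [← e2]; group
      _ = v * (u * w) := by rw [e1]; group
  set φ : N ⧸ (CG x).subgroupOf N →* MulAut P0 := QuotientGroup.lift _ _ hφ with hφd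
  set ψ : N ⧸ (CG x).subgroupOf N →* MulAut R0 := QuotientGroup.lift _ _ hψ with hψd
  have hone : ∀ n : N, (n : N ⧸ (CG x).subgroupOf N) = 1 ↔ (n : G) ∈ CG x := by
    intro n
    rw [QuotientGroup.eq_one_iff, mem_subgroupOf]
  have hφm : ∀ (n : N) (v : P0), ((φ (n : N ⧸ (CG x).subgroupOf N) v : P0) : G) =
      n * v * (n : G)⁻¹ := fun n v => rfl
  have hψm : ∀ (n : N) (v : R0), ((ψ (n : N ⧸ (CG x).subgroupOf N) v : R0) : G) =
      n * v * (n : G)⁻¹ := fun n v => rfl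
  have a1 : AFix p φ ((center G).subgroupOf P0) := by
    refine ⟨fun u v => Subtype.ext (k3 u u.2 v v.2), hD.pgrp, ?_, ?_, ?_⟩
    · intro e v hv
      induction e using QuotientGroup.induction_on with
      | H n =>
        apply Subtype.ext
        rw [hφm]
        have h5 := mem_center_iff.1 (mem_subgroupOf.1 hv) (n : G)
        rw [h5, mul_inv_cancel_right]
    · intro e he v hv
      induction e using QuotientGroup.induction_on with
      | H n =>
        rw [mem_subgroupOf]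
        by_contra hvc
        apply he
        rw [hone, ← k4 v v.2 hvc, mem_CG]
        have h5 := congrArg Subtype.val hv
        rw [hφm, mul_inv_eq_iff_eq_mul] at h5
        exact h5
    · intro h
      have : (⟨x, hxP⟩ : P0) ∈ (center G).subgroupOf P0 := h ▸ mem_top _
      exact hx.nc (mem_subgroupOf.1 this)
  have a2 : AFix r ψ ((center G).subgroupOf R0) := by
    refine ⟨fun u v => Subtype.ext (h3 u u.2 v v.2), hD'.pgrp, ?_, ?_, ?_⟩
    · intro e v hv
      induction e using QuotientGroup.induction_on with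
      | H n =>
        apply Subtype.ext
        rw [hψm]
        have h5 := mem_center_iff.1 (mem_subgroupOf.1 hv) (n : G)
        rw [h5, mul_inv_cancel_right]
    · intro e he v hv
      induction e using QuotientGroup.induction_on with
      | H n =>
        rw [mem_subgroupOf]
        by_contra hvc
        apply he
        rw [hone, hC, ← h4 v v.2 hvc, mem_CG]
        have h5 := congrArg Subtype.val hv
        rw [hψm, mul_inv_eq_iff_eq_mul] at h5
        exact h5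
    · intro h
      have : (⟨z, hzR⟩ : R0) ∈ (center G).subgroupOf R0 := h ▸ mem_top _
      exact hz (mem_subgroupOf.1 this)
  -- elements of order `p` and `r`
  have hPel : ∀ (q : ℕ) (n : N), PEl q (n : G) → PEl q (n : N ⧸ (CG x).subgroupOf N) := by
    rintro q n ⟨k, hk⟩
    refine ⟨k, ?_⟩
    have : n ^ q ^ k = 1 := Subtype.ext (by simpa using hk)
    rw [← QuotientGroup.mk_pow, this]; rfl
  have b1 : p ∣ Nat.card (N ⧸ (CG x).subgroupOf N) := by
    obtain ⟨t, ht, ht0⟩ := Spec.exists_not_mem hA hx hD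
    have htN : t ∈ N := mem_normalizer_fintype (fun c hc => hx.conj_CG ht c hc)
    have htp : PEl p t := PEl.of_mem P.2 ht
    refine dvd_card_of_pEl (hPel p ⟨t, htN⟩ htp) ?_
    rw [Ne, hone]
    intro h
    exact ht0 (hD.mem_P h htp)
  have b2 : r ∣ Nat.card (N ⧸ (CG x).subgroupOf N) := by
    have htN : g ∈ N := mem_normalizer_fintype (fun c hc => by
      change g * c * g⁻¹ ∈ CG x
      rw [hC]; exact hgC c (hC ▸ hc))
    have hgr : PEl r g := PEl.of_mem R.2 hgR
    refine dvd_card_of_pEl (hPel r ⟨g, htN⟩ hgr) ?_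
    rw [Ne, hone, hC]
    intro h
    exact hg0 (hD'.mem_P h hgr)
  exact a1.no_two a2 hpr b1 b2

end Cfsg.Agent.H558.Cs
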