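import Mathlib
import Cfsg.Agent.H558.CsA

/-!
# A `p`-element of class size `p ^ a` (helper558, for S4284)
-/

set_option autoImplicit false
set_option linter.unusedSectionVars false
set_option linter.style.haveILetI false

namespace Cfsg.Agent.H558.Cs

open Subgroup

variable {G : Type*} [Group G] [Finite G]

/-- class sizes `1`, `p ^ a`, `p ^ a * n`. -/
structure CS (G : Type*) [Group G] (p a n : ℕ) : Prop where
  pos : 0 < a
  n1 : 1 < n
  cop : ¬ p ∣ n
  ind : ∀ x : G, x ∉ center G → (CG x).index = p ^ a ∨ (CG x).index = p ^ a * n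
  ex1 : ∃ x : G, (CG x).index = p ^ a
  ex2 : ∃ x : G, (CG x).index = p ^ a * n

theorem index_one_of_mem {x : G} (hx : x ∈ center G) : (CG x).index = 1 := by
  rw [CG_eq_top_iff.2 hx, index_top]

section

variable {p : ℕ} [hp : Fact p.Prime]

theorem mem_of_relIndex {N C : Subgroup G} [hN : N.Normal] (h : ¬ p ∣ N.relIndex C) {y : G}
    (hy : y ∈ C) (hyp : PEl p y) : y ∈ N := by
  have h1 : N.relIndex C = Nat.card (C.map (QuotientGroup.mk' N)) := by
    have := relIndex_ker C (QuotientGroup.mk' N)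
    rwa [QuotientGroup.ker_mk'] at this
  have h2 : QuotientGroup.mk' N y = 1 := by
    apply PEl.eq_one hp.out (p := p)
    · obtain ⟨k, hk⟩ := hyp
      exact ⟨k, by rw [← map_pow, hk, map_one]⟩
    · apply not_dvd_orderOf_of_mem (H := C.map (QuotientGroup.mk' N))
      · rwa [← h1]
      · exact mem_map_of_mem _ hy
  exact (QuotientGroup.eq_one_iff y).1 h2

theorem mem_of_normal {N C T : Subgroup G} [hN : N.Normal] (hTN : T ≤ N) (hTC : T ≤ C)
    (hT : Nat.card T = p ^ (Nat.card C).factorization p) {y : G}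
    (hy : y ∈ C) (hyp : PEl p y) : y ∈ N := by
  refine mem_of_relIndex (p := p) (C := C) ?_ hy hyp
  intro hd
  have h1 : Nat.card (N.subgroupOf C) * N.relIndex C = Nat.card C :=
    (N.subgroupOf C).card_mul_index
  have h2 : Nat.card T ∣ Nat.card (N.subgroupOf C) := by
    have h3 : Nat.card (N.subgroupOf C) = Nat.card (N ⊓ C : Subgroup G) := by
      rw [← subgroupOf_map_subtype]
      exact Nat.card_congr ((N.subgroupOf C).equivMapOfInjective _ C.subtype_injective).toEquiv
    rw [h3]
    exact card_dvd_of_le (le_inf hTN hTC)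
  have h4 : p ^ (Nat.card C).factorization p * p ∣ Nat.card C := by
    rw [← hT, ← h1]
    exact Nat.mul_dvd_mul h2 hd
  rw [← pow_succ] at h4
  exact Nat.pow_succ_factorization_not_dvd Nat.card_pos.ne' hp.out h4

theorem mem_core {C : Subgroup G} (hC : C.index = p) {y : G} (hy : y ∈ C) (hyp : PEl p y) :
    y ∈ C.normalCore := by
  refine mem_of_relIndex (p := p) (C := C) ?_ hy hyp
  intro hd
  have h1 : C.normalCore.relIndex C * C.index = C.normalCore.index :=
    relIndex_mul_index (normalCore_le C)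
  have h2 : C.normalCore.index ∣ p.factorial := by
    rw [Subgroup.normalCore_eq_ker, Subgroup.index_ker]
    have h3 : Nat.card (Equiv.Perm (G ⧸ C)) = p.factorial := by
      rw [Nat.card_perm]
      change (Nat.card (G ⧸ C)).factorial = _
      rw [← Subgroup.index_eq_card, hC]
    rw [← h3]
    exact card_subgroup_dvd_card _
  rw [← h1, hC] at h2
  obtain ⟨q, hq⟩ := Nat.exists_eq_succ_of_ne_zero hp.out.ne_zero
  have h3 : p.factorial = q.factorial * p := by
    rw [hq, Nat.factorial_succ, mul_comm]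
  rw [h3] at h2
  have h4 : C.normalCore.relIndex C ∣ q.factorial := Nat.dvd_of_mul_dvd_mul_right hp.out.pos h2
  have h5 := (hp.out.dvd_factorial).1 (hd.trans h4)
  omega

/-- A `p'`-element commuting with a `p`-element outside a subgroup of index `p` is in it. -/
theorem mem_of_comm {C : Subgroup G} (hC : C.index = p) {y u : G} (hy : y ∉ C) (hyp : PEl p y)
    (hu : ¬ p ∣ orderOf u) (huy : u * y = y * u) : u ∈ C := by
  have h1 : (MulAction.orbit (zpowers y) ((1 : G) : G ⧸ C)) = Set.univ := by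
    obtain ⟨k, hk⟩ := hyp.isPGroup_zpowers.card_orbit ((1 : G) : G ⧸ C)
    have hcard : Nat.card (G ⧸ C) = p := by rw [← Subgroup.index_eq_card, hC]
    apply Set.eq_univ_of_forall
    have hk0 : k ≠ 0 := by
      rintro rfl
      rw [pow_zero] at hk
      have hsub := (Nat.card_eq_one_iff_unique.1 hk).1
      have e1 : (⟨((1 : G) : G ⧸ C), MulAction.mem_orbit_self _⟩ :
          MulAction.orbit (zpowers y) ((1 : G) : G ⧸ C)) =
          ⟨(⟨y, mem_zpowers y⟩ : zpowers y) • ((1 : G) : G ⧸ C), MulAction.mem_orbit _ _⟩ :=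
        Subsingleton.elim _ _
      have e2 : ((1 : G) : G ⧸ C) = ((y * 1 : G) : G ⧸ C) := congrArg Subtype.val e1
      rw [QuotientGroup.eq, mul_one, inv_one, one_mul] at e2
      exact hy e2
    have h2 : Nat.card (G ⧸ C) ≤ Nat.card (MulAction.orbit (zpowers y) ((1 : G) : G ⧸ C)) := by
      rw [hcard, hk]
      exact Nat.le_self_pow hk0 p
    intro z
    have h3 : Function.Surjective (Subtype.val :
        MulAction.orbit (zpowers y) ((1 : G) : G ⧸ C) → G ⧸ C) := by
      have := (Nat.bijective_iff_injective_and_card (Subtype.val :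
        MulAction.orbit (zpowers y) ((1 : G) : G ⧸ C) → G ⧸ C)).2
        ⟨Subtype.val_injective, le_antisymm
          (Nat.card_le_card_of_injective _ Subtype.val_injective) h2⟩
      exact this.2
    obtain ⟨w, rfl⟩ := h3 z
    exact w.2
  have h2 : ((u : G) : G ⧸ C) ∈ MulAction.orbit (zpowers y) ((1 : G) : G ⧸ C) :=
    h1 ▸ Set.mem_univ _
  obtain ⟨⟨w, hw⟩, hwu⟩ := h2
  have hwu' : ((w * 1 : G) : G ⧸ C) = (u : G ⧸ C) := hwu
  rw [QuotientGroup.eq, mul_one] at hwu'
  obtain ⟨j, rfl⟩ := mem_zpowers_iff.1 hw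
  have hyj : PEl p (y ^ j)⁻¹ := by
    obtain ⟨k, hk⟩ := hyp
    refine ⟨k, ?_⟩
    rw [inv_pow, ← zpow_natCast, ← zpow_mul, mul_comm, zpow_mul, zpow_natCast, hk, one_zpow,
      inv_one]
  have hcom : (y ^ j)⁻¹ * u = u * (y ^ j)⁻¹ :=
    ((show Commute u y from huy).zpow_right j).inv_right.eq.symm
  exact (zpowers_le.2 hwu') (mem_zpowers_mul_right hcom (coprime_of_pEl hp.out hyj hu))

end

namespace CS

variable {p a n : ℕ} [hp : Fact p.Prime]

theorem not_dvd_index_n (h : CS G p a n) : (p ^ a).factorization p = a ∧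
    (p ^ a * n).factorization p = a := by
  have h1 : (p ^ a).factorization p = a := by
    rw [hp.out.factorization_pow, Finsupp.single_eq_same]
  have hn0 : n ≠ 0 := by have := h.n1; omega
  refine ⟨h1, ?_⟩
  rw [Nat.factorization_mul (pow_ne_zero _ hp.out.ne_zero) hn0, Finsupp.add_apply, h1,
    Nat.factorization_eq_zero_of_not_dvd h.cop, add_zero]

theorem one_lt (h : CS G p a n) : 1 < p ^ a := Nat.one_lt_pow h.pos.ne' hp.out.one_lt

theorem base (h : CS G p a n) : Base G p a := by
  refine ⟨h.pos, ?_, ?_⟩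
  · intro x hx
    rcases h.ind x hx with h1 | h1
    · rw [h1]; exact h.not_dvd_index_n.1
    · rw [h1]; exact h.not_dvd_index_n.2
  · obtain ⟨x, hx⟩ := h.ex1
    refine ⟨x, ?_⟩
    intro hxc
    rw [index_one_of_mem hxc] at hx
    have := h.one_lt
    omega

theorem not_center1 (h : CS G p a n) {x : G} (hx : (CG x).index = p ^ a) : x ∉ center G := by
  intro hxc
  rw [index_one_of_mem hxc] at hx
  have := h.one_lt
  omega

theorem index_of_le (h : CS G p a n) {x y : G} (hy : y ∉ center G) (hle : CG x ≤ CG y)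
    (hx : (CG x).index = p ^ a) : (CG y).index = p ^ a := by
  rcases h.ind y hy with h1 | h1
  · exact h1
  · exfalso
    have h2 := index_dvd_of_le hle
    rw [h1, hx] at h2
    have h3 := Nat.le_of_dvd (pow_pos hp.out.pos _) h2
    have h4 : p ^ a * 1 < p ^ a * n := Nat.mul_lt_mul_of_pos_left h.n1 (pow_pos hp.out.pos _)
    omega

/-- If `C(x)` is of the smallest order, then it is contained in `C(y)` for commuting `y` of
coprime order. -/
theorem le_of_type2 (h : CS G p a n) {x y : G} (hx : (CG x).index = p ^ a * n)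
    (hxy : x ∉ center G) (hc : CG (x * y) = CG x ⊓ CG y) : CG x ≤ CG y := by
  have h1 : CG (x * y) ≤ CG x := by rw [hc]; exact inf_le_left
  have h2 : (x * y) ∉ center G := by
    intro hcc
    have h3 := CG_eq_top_iff.2 hcc
    rw [h3] at h1
    exact hxy (CG_eq_top_iff.1 (top_le_iff.1 h1))
  have h3 : (CG (x * y)).index ≤ p ^ a * n := by
    rcases h.ind _ h2 with h4 | h4
    · rw [h4]; exact Nat.le_mul_of_pos_right _ (by have := h.n1; omega)
    · rw [h4]
  have h4 : CG (x * y) = CG x := by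
    apply eq_of_le_of_card_ge h1
    have e1 := (CG (x * y)).card_mul_index
    have e2 := (CG x).card_mul_index
    rw [hx] at e2
    by_contra hcon
    push Not at hcon
    have h5 : Nat.card (CG (x * y)) * (CG (x * y)).index ≤
        Nat.card (CG (x * y)) * (p ^ a * n) := Nat.mul_le_mul_left _ h3
    have h6 : Nat.card (CG (x * y)) * (p ^ a * n) < Nat.card (CG x) * (p ^ a * n) :=
      Nat.mul_lt_mul_of_pos_right hcon (by
        have := h.n1
        have := pow_pos hp.out.pos a
        positivity)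
    omega
  rw [← h4, hc]; exact inf_le_right

theorem card_H_eq (h : CS G p a n) {x y : G} {P0 H P1 H1 : Subgroup G}
    (hi : (CG x).index = (CG y).index) (hD : Dec p (CG x) P0 H) (hD1 : Dec p (CG y) P1 H1) :
    Nat.card H = Nat.card H1 := by
  have e1 := (CG x).card_mul_index
  have e2 := (CG y).card_mul_index
  rw [hi] at e1
  have e3 : Nat.card (CG x) = Nat.card (CG y) :=
    Nat.eq_of_mul_eq_mul_right (Nat.pos_of_ne_zero FiniteIndex.index_ne_zero) (e1.trans e2.symm)
  have e4 : Nat.card P0 = Nat.card P1 := by rw [hD.card_P, hD1.card_P, e3]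
  rw [hD.card_eq, hD1.card_eq, e4] at e3
  exact Nat.eq_of_mul_eq_mul_left Nat.card_pos e3

/-- **A `p`-element of class size `p ^ a`.** -/
theorem exists_type1 (h : CS G p a n) : ∃ y : G, PEl p y ∧ (CG y).index = p ^ a := by
  have hB := h.base
  by_contra hcon
  push Not at hcon
  have hno : ∀ y : G, PEl p y → y ∉ center G → (CG y).index = p ^ a * n := by
    intro y hy hyc
    rcases h.ind y hyc with h1 | h1
    · exact absurd h1 (hcon y hy)
    · exact h1
  obtain ⟨w0, hw0⟩ := h.ex1
  obtain ⟨c, v, hcv, hcv', hc, hv, -, -⟩ := exists_parts hp.out w0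
  have hCw : CG w0 = CG c ⊓ CG v := by
    rw [hcv]; exact centralizer_mul_of_pEl hp.out hcv' hc hv
  have hcc : c ∈ center G := by
    by_contra hcc
    have := h.index_of_le hcc (hCw ▸ inf_le_left) hw0
    exact hcon c hc this
  have hCv : CG w0 = CG v := by rw [hCw, CG_eq_top_iff.2 hcc, top_inf_eq]
  have hvi : (CG v).index = p ^ a := hCv ▸ hw0
  have hvc : v ∉ center G := h.not_center1 hvi
  obtain ⟨P⟩ : Nonempty (Sylow p G) := inferInstance
  obtain ⟨x, hx⟩ := hB.exists_spec P
  obtain ⟨P0, H, hD⟩ := hB.exists_dec hx.nc hx.pEl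
  have hHc : ∀ {y : G} {P1 H1 : Subgroup G}, PEl p y → y ∉ center G → Dec p (CG y) P1 H1 →
      Nat.card H = Nat.card H1 := by
    intro y P1 H1 hy hyc hD1
    exact h.card_H_eq ((hno x hx.pEl hx.nc).trans (hno y hy hyc).symm) hD hD1
  by_cases hH : H ≤ center G
  · obtain ⟨y, hyv, hyp, hyc⟩ := hB.exists_comm_pEl hvc
    obtain ⟨P1, H1, hD1⟩ := hB.exists_dec hyc hyp
    have hvy : v ∈ H1 := hD1.mem_H (mem_CG.2 (mem_CG.1 hyv).symm) hv
    have hle : H ≤ H1 := fun g hg => hD1.mem_H (center_le_CG y (hH hg))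
      (not_dvd_orderOf_of_mem hD.cop hg)
    have heq : H = H1 := eq_of_le_of_card_ge hle (hHc hyp hyc hD1).ge
    exact hvc (hH (heq ▸ hvy))
  -- case II
  have ha : a = 1 := hx.a_eq_one hB hD hH
  subst ha
  rw [pow_one] at hvi
  have hcore : ∀ {w g : G}, (CG w).index = p → g ∈ CG w → PEl p g → g ∈ (CG w).normalCore :=
    fun hw hg hgp => mem_core hw hg hgp
  -- `y1`
  obtain ⟨y1, hy1, hy1v⟩ : ∃ y1 : G, PEl p y1 ∧ y1 ∉ CG v := by
    by_contra hcon2
    push Not at hcon2
    exact hvc (hB.mem_center P fun g hg => hcon2 g (PEl.of_mem P.2 hg))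
  have hy1c : y1 ∉ center G := fun hh => hy1v (center_le_CG v hh)
  have hy1n : y1 ∉ (CG v).normalCore := fun hh => hy1v (normalCore_le _ hh)
  obtain ⟨P1, H1, hD1⟩ := hB.exists_dec hy1c hy1
  obtain ⟨u, huH, huc⟩ : ∃ u ∈ H1, u ∉ center G := by
    by_contra hcon2
    push Not at hcon2
    have hle : H1 ≤ H := fun g hg => hD.mem_H (center_le_CG x (hcon2 g hg))
      (not_dvd_orderOf_of_mem hD1.cop hg)
    have heq : H1 = H := eq_of_le_of_card_ge hle (hHc hy1 hy1c hD1).le
    exact hH (heq ▸ hcon2)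
  have hu : ¬ p ∣ orderOf u := not_dvd_orderOf_of_mem hD1.cop huH
  have huy : u * y1 = y1 * u := mem_CG.1 (hD1.le' huH)
  -- `u` is in the core of `C(v)`
  have huv : u ∈ (CG v).normalCore := by
    intro g
    refine mem_of_comm (y := g * y1 * g⁻¹) hvi ?_ (hy1.conj g) (not_dvd_orderOf_conj hu g) ?_
    · intro hh
      apply hy1n
      have h1 := hcore hvi hh (hy1.conj g)
      have h2 := (normalCore_normal (CG v)).conj_mem _ h1 g⁻¹
      have e : g⁻¹ * (g * y1 * g⁻¹) * g⁻¹⁻¹ = y1 := by group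
      rwa [e] at h2
    · calc g * u * g⁻¹ * (g * y1 * g⁻¹) = g * (u * y1) * g⁻¹ := by group
        _ = g * (y1 * u) * g⁻¹ := by rw [huy]
        _ = g * y1 * g⁻¹ * (g * u * g⁻¹) := by group
  have huv' : u * v = v * u := mem_CG.1 (normalCore_le _ huv)
  rcases h.ind u huc with hui | hui
  · -- type I
    rw [pow_one] at hui
    have hvu : v * u ∉ center G := by
      intro hh
      apply hy1v
      rw [mem_CG]
      have h1 := mem_center_iff.1 hh y1
      -- y1 (v u) = (v u) y1 = v y1 u
      have h2 : y1 * v * u = v * y1 * u := by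
        calc y1 * v * u = y1 * (v * u) := by group
          _ = v * (u * y1) := by rw [h1]; group
          _ = v * y1 * u := by rw [huy]; group
      exact mul_right_cancel h2
    obtain ⟨T, hTC, hT, hTcard⟩ := exists_pgroup_card (p := p) (CG (v * u))
    have hy1u : y1 ∈ CG u := mem_CG.2 huy.symm
    -- `y'`
    obtain ⟨y', hy'T, hy'⟩ : ∃ y' ∈ T, ¬ (y' ∈ CG u ∧ y' ∈ CG v) := by
      by_contra hcon2
      push Not at hcon2
      have hTv : T ≤ (CG v).normalCore := fun g hg =>
        hcore hvi (hcon2 g hg).2 (PEl.of_mem hT hg)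
      have hTu : T ≤ CG u := fun g hg => (hcon2 g hg).1
      apply hy1n
      refine mem_of_normal (p := p) hTv hTu ?_ hy1u hy1
      rw [hTcard, hB.card_eq hvu huc]
    have hy'p : PEl p y' := PEl.of_mem hT hy'T
    have hy'c : y' * (v * u) = (v * u) * y' := mem_CG.1 (hTC hy'T)
    set w := u⁻¹ * (y' * u * y'⁻¹) with hw
    have hw2 : w = v * (y' * v * y'⁻¹)⁻¹ := by
      have e1 : (y' * v * y'⁻¹) * (y' * u * y'⁻¹) = v * u := by
        calc (y' * v * y'⁻¹) * (y' * u * y'⁻¹) = (y' * (v * u)) * y'⁻¹ := by group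
          _ = v * u := by rw [hy'c]; group
      have e2 : y' * u * y'⁻¹ = (y' * v * y'⁻¹)⁻¹ * (u * v) := by
        rw [eq_inv_mul_iff_mul_eq, e1, huv']
      have e3 : y' * u * y'⁻¹ = u * w := by rw [hw]; group
      -- conj commutes
      have e4 : (y' * u * y'⁻¹) * (y' * v * y'⁻¹) = u * v := by
        calc (y' * u * y'⁻¹) * (y' * v * y'⁻¹) = y' * (u * v) * y'⁻¹ := by group
          _ = y' * (v * u) * y'⁻¹ := by rw [huv']
          _ = v * u := by rw [hy'c]; group
          _ = u * v := huv'.symm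
      rw [e3] at e4
      have e5 : w * (y' * v * y'⁻¹) = v := by
        have : u * (w * (y' * v * y'⁻¹)) = u * v := by rw [← e4]; group
        exact mul_left_cancel this
      exact eq_mul_inv_of_mul_eq e5
    have hcK : ∀ (s : G) {g : G}, g ∈ (CG s).normalCore →
        g * (y' * s * y'⁻¹) = (y' * s * y'⁻¹) * g := by
      intro s g hg
      have h1 := (normalCore_normal (CG s)).conj_mem _ hg y'⁻¹
      have h2 : (y'⁻¹ * g * y'⁻¹⁻¹) * s = s * (y'⁻¹ * g * y'⁻¹⁻¹) :=
        mem_CG.1 (normalCore_le _ h1)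
      calc g * (y' * s * y'⁻¹) = y' * ((y'⁻¹ * g * y'⁻¹⁻¹) * s) * y'⁻¹ := by group
        _ = y' * (s * (y'⁻¹ * g * y'⁻¹⁻¹)) * y'⁻¹ := by rw [h2]
        _ = (y' * s * y'⁻¹) * g := by group
    have hwu : (CG u).normalCore ≤ CG w := by
      intro g hg
      have h1 : Commute g (y' * u * y'⁻¹) := hcK u hg
      have h2 : Commute g u := mem_CG.1 (normalCore_le _ hg)
      exact mem_CG.2 (h2.inv_right.mul_right h1).eq
    have hwv : (CG v).normalCore ≤ CG w := by
      intro g hg
      have h1 : Commute g (y' * v * y'⁻¹) := hcK v hg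
      have h2 : Commute g v := mem_CG.1 (normalCore_le _ hg)
      rw [hw2]
      exact mem_CG.2 (h2.mul_right h1.inv_right).eq
    have hwc : w ∈ center G := by
      by_contra hwc
      apply hy1n
      obtain ⟨T', hTC', hT', hTcard'⟩ := exists_pgroup_card (p := p) (CG v)
      have hT'v : T' ≤ (CG v).normalCore := fun g hg =>
        hcore hvi (hTC' hg) (PEl.of_mem hT' hg)
      refine mem_of_normal (p := p) (C := CG w) hT'v (hT'v.trans hwv) ?_
        (hwu (hcore hui hy1u hy1)) hy1
      rw [hTcard', hB.card_eq hvc hwc]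
    have hwo : ¬ p ∣ orderOf w := by
      intro hd
      apply hu
      refine hd.trans (orderOf_dvd_of_pow_eq_one ?_)
      have e3 : y' * u * y'⁻¹ = u * w := by rw [hw]; group
      have e4 : (u * w) ^ orderOf u = 1 := by
        rw [← e3, conj_pow, pow_orderOf_eq_one]; group
      rw [(show Commute u w from mem_center_iff.1 hwc u).mul_pow, pow_orderOf_eq_one,
        one_mul] at e4
      exact e4
    have hy'u : y' * u = u * y' :=
      eq_of_comm_mod_center hy'p hwc hwo (by rw [hw]; group)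
    have hy'v : y' * v = v * y' := by
      have : y' * v * u = v * y' * u := by
        calc y' * v * u = y' * (v * u) := by group
          _ = v * (u * y') := by rw [hy'c]; group
          _ = v * y' * u := by rw [← hy'u]; group
      exact mul_right_cancel this
    exact hy' ⟨mem_CG.2 hy'u, mem_CG.2 hy'v⟩
  · -- type II
    have h1 : CG u ≤ CG y1 := by
      apply h.le_of_type2 hui huc
      have h2 := centralizer_mul_of_pEl hp.out huy.symm hy1 hu
      change CG (y1 * u) = CG y1 ⊓ CG u at h2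
      rw [huy, h2, inf_comm]
    apply hy1v
    have h2 : v ∈ CG y1 := h1 (mem_CG.2 huv'.symm)
    exact mem_CG.2 (mem_CG.1 h2).symm

end CS

end Cfsg.Agent.H558.Cs
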