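import Mathlib
import Cfsg.Agent.H558.CsB
import Cfsg.Agent.S1442

/-!
# The structure of the groups with class sizes `1`, `m`, `m n` (helper558, for S4284)
-/

set_option autoImplicit false
set_option linter.unusedSectionVars false
set_option linter.style.haveILetI false
set_option linter.unusedVariables false

namespace Cfsg.Agent.H558.Cs

open Subgroup
open scoped commutatorElement

theorem relIndex_eq_card_map {G : Type*} [Group G] (N C : Subgroup G) [hN : N.Normal] :
    N.relIndex C = Nat.card (C.map (QuotientGroup.mk' N)) := by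
  have := relIndex_ker C (QuotientGroup.mk' N)
  rwa [QuotientGroup.ker_mk'] at this

theorem card_mul_relIndex' {G : Type*} [Group G] (N C : Subgroup G) :
    Nat.card (N ⊓ C : Subgroup G) * N.relIndex C = Nat.card C := by
  have h6 : Nat.card (N.subgroupOf C) = Nat.card (N ⊓ C : Subgroup G) := by
    rw [← subgroupOf_map_subtype]
    exact Nat.card_congr ((N.subgroupOf C).equivMapOfInjective _ C.subtype_injective).toEquiv
  rw [← h6]
  exact (N.subgroupOf C).card_mul_index

/-- `|A| = |A ∩ C(t)| |P'|` for an abelian normal subgroup `A` with `P = A⟨t⟩`. -/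
theorem card_commutator {P : Type*} [Group P] [Finite P] (A : Subgroup P) [hAn : A.Normal]
    (hA : ∀ a ∈ A, ∀ b ∈ A, a * b = b * a) (t : P) (htop : A ⊔ zpowers t = ⊤) :
    Nat.card A = Nat.card (A ⊓ CG t : Subgroup P) * Nat.card (commutator P) := by
  have hcA : ∀ a ∈ A, t * a⁻¹ * t⁻¹ ∈ A := fun a ha => hAn.conj_mem _ (inv_mem ha) t
  let L : A →* P :=
    { toFun := fun a => (a : P) * (t * (a : P)⁻¹ * t⁻¹)
      map_one' := by simp
      map_mul' := by
        rintro ⟨a, ha⟩ ⟨b, hb⟩
        change (a * b) * (t * (a * b)⁻¹ * t⁻¹) = (a * (t * a⁻¹ * t⁻¹)) * (b * (t * b⁻¹ * t⁻¹))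
        have e1 := hA _ (hcA a ha) b hb
        calc (a * b) * (t * (a * b)⁻¹ * t⁻¹) =
            a * b * ((t * b⁻¹ * t⁻¹) * (t * a⁻¹ * t⁻¹)) := by group
          _ = a * b * ((t * a⁻¹ * t⁻¹) * (t * b⁻¹ * t⁻¹)) := by
            rw [hA _ (hcA a ha) _ (hcA b hb)]
          _ = a * (b * (t * a⁻¹ * t⁻¹)) * (t * b⁻¹ * t⁻¹) := by group
          _ = a * ((t * a⁻¹ * t⁻¹) * b) * (t * b⁻¹ * t⁻¹) := by rw [e1]
          _ = _ := by group }
  have hL : ∀ a : A, L a = (a : P) * (t * (a : P)⁻¹ * t⁻¹) := fun a => rfl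
  have hLA : L.range ≤ A := by
    rintro _ ⟨a, rfl⟩
    exact mul_mem a.2 (hcA a a.2)
  have hnorm : L.range.Normal := by
    have h1 : (⊤ : Subgroup P) ≤ normalizer ((L.range : Subgroup P) : Set P) := by
      rw [← htop]
      refine sup_le ?_ ?_
      · intro a ha
        apply mem_normalizer_fintype
        intro d hd
        change a * d * a⁻¹ ∈ L.range
        rw [hA a ha d (hLA hd), mul_inv_cancel_right]
        exact hd
      · rw [zpowers_le]
        apply mem_normalizer_fintype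
        rintro _ ⟨a, rfl⟩
        refine ⟨⟨t * a * t⁻¹, hAn.conj_mem _ a.2 t⟩, ?_⟩
        rw [hL, hL]
        change (t * (a : P) * t⁻¹) * (t * (t * (a : P) * t⁻¹)⁻¹ * t⁻¹) = _
        group
    exact normalizer_eq_top_iff.1 (top_le_iff.1 h1)
  have hcomm : commutator P = L.range := by
    apply le_antisymm
    · rw [← Subgroup.Normal.quotient_commutative_iff_commutator_le]
      set π := QuotientGroup.mk' L.range with hπ
      have hat : ∀ a ∈ A, π a * π t = π t * π a := by
        intro a ha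
        have h1 : π (L ⟨a, ha⟩) = 1 := (QuotientGroup.eq_one_iff _).2 ⟨_, rfl⟩
        rw [hL] at h1
        change π (a * (t * a⁻¹ * t⁻¹)) = 1 at h1
        rw [map_mul, map_mul, map_mul, map_inv, map_inv] at h1
        have h2 : π a * (π t * (π a)⁻¹ * (π t)⁻¹) * (π t * π a) = π t * π a := by
          rw [h1, one_mul]
        rw [← h2]; group
      have key : ∀ z : P ⧸ L.range, (∀ a ∈ A, π a * z = z * π a) → π t * z = z * π t →
          ∀ w : P, π w * z = z * π w := by
        intro z h1 h2 w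
        have h3 : (⊤ : Subgroup P) ≤ (CG z).comap π := by
          rw [← htop]
          refine sup_le (fun a ha => ?_) (zpowers_le.2 ?_)
          · exact mem_comap.2 (mem_CG.2 (h1 a ha))
          · exact mem_comap.2 (mem_CG.2 h2)
        exact mem_CG.1 (mem_comap.1 (h3 (mem_top w)))
      have hAc : ∀ a ∈ A, ∀ w : P, π w * π a = π a * π w := by
        intro a ha
        refine key _ (fun b hb => ?_) (hat a ha).symm
        rw [← map_mul, ← map_mul, hA b hb a ha]
      have htc : ∀ w : P, π w * π t = π t * π w := key _ hat rfl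
      refine ⟨⟨fun x y => ?_⟩⟩
      obtain ⟨u, rfl⟩ := QuotientGroup.mk'_surjective L.range x
      obtain ⟨v, rfl⟩ := QuotientGroup.mk'_surjective L.range y
      exact key (π v) (fun a ha => (hAc a ha v).symm) (htc v).symm u
    · rintro _ ⟨a, rfl⟩
      have h1 : L a = ⁅(a : P), t⁆ := by
        rw [hL, commutatorElement_def]; group
      rw [h1, _root_.commutator_def]
      exact commutator_mem_commutator (mem_top _) (mem_top _)
  have hker : Nat.card L.ker = Nat.card (A ⊓ CG t : Subgroup P) := by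
    have h1 : L.ker.map A.subtype = A ⊓ CG t := by
      ext g
      constructor
      · rintro ⟨a, ha, rfl⟩
        refine ⟨a.2, mem_CG.2 ?_⟩
        have h2 : (a : P) * (t * (a : P)⁻¹ * t⁻¹) = 1 := ha
        have h3 : (a : P) * (t * (a : P)⁻¹ * t⁻¹) * (t * a) = t * a := by rw [h2, one_mul]
        change (a : P) * t = t * a
        rw [← h3]; group
      · rintro ⟨hg, hgt⟩
        refine ⟨⟨g, hg⟩, ?_, rfl⟩
        change g * (t * g⁻¹ * t⁻¹) = 1
        have h2 : g * t = t * g := mem_CG.1 hgt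
        calc g * (t * g⁻¹ * t⁻¹) = (g * t) * g⁻¹ * t⁻¹ := by group
          _ = 1 := by rw [h2]; group
    rw [← h1]
    exact Nat.card_congr (L.ker.equivMapOfInjective _ A.subtype_injective).toEquiv
  rw [hcomm, ← hker, ← Subgroup.index_ker, card_mul_index]

variable {G : Type*} [Group G] [Finite G]

theorem eq_of_mul_pow {p u v i j : ℕ} (hp : p.Prime) (hu : ¬ p ∣ u) (hv : ¬ p ∣ v)
    (h : u * p ^ i = v * p ^ j) : u = v := by
  apply Nat.dvd_antisymm
  · have h1 : u ∣ v * p ^ j := h ▸ Dvd.intro _ rfl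
    exact (Nat.Coprime.pow_right j ((Nat.Prime.coprime_iff_not_dvd hp).2 hu).symm).dvd_of_dvd_mul_right h1
  · have h1 : v ∣ u * p ^ i := h ▸ Dvd.intro _ rfl
    exact (Nat.Coprime.pow_right i ((Nat.Prime.coprime_iff_not_dvd hp).2 hv).symm).dvd_of_dvd_mul_right h1

theorem exists_mul {p a : ℕ} [hp : Fact p.Prime] (P : Sylow p G) {C : Subgroup G}
    (hC : C.index = p ^ a) (g : G) : ∃ x ∈ (P : Subgroup G), ∃ c ∈ C, g = x * c := by
  set O := MulAction.orbit (P : Subgroup G) ((1 : G) : G ⧸ C) with hO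
  set S := MulAction.stabilizer (P : Subgroup G) ((1 : G) : G ⧸ C) with hS
  have h1 : S.index = Nat.card O := by
    rw [hS, MulAction.index_stabilizer]; rfl
  have h2 : Nat.card S ≤ p ^ (Nat.card C).factorization p := by
    have h3 : S.map (P : Subgroup G).subtype ≤ C := by
      rintro _ ⟨s, hs, rfl⟩
      have h4 : s • ((1 : G) : G ⧸ C) = ((1 : G) : G ⧸ C) := hs
      have h5 : (((s : G) * 1 : G) : G ⧸ C) = ((1 : G) : G ⧸ C) := h4
      rw [QuotientGroup.eq, mul_one, mul_one] at h5
      exact inv_mem_iff.1 h5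
    have h4 : Nat.card S = Nat.card (S.map (P : Subgroup G).subtype) :=
      Nat.card_congr (S.equivMapOfInjective _ (P : Subgroup G).subtype_injective).toEquiv
    rw [h4]
    exact card_le_of_isPGroup ((P.2.to_subgroup S).map _) h3
  have h3 : Nat.card (P : Subgroup G) = p ^ (Nat.card C).factorization p * p ^ a := by
    have h4 : (Nat.card G).factorization p = (Nat.card C).factorization p + a := by
      rw [← C.card_mul_index, Nat.factorization_mul Nat.card_pos.ne'
        FiniteIndex.index_ne_zero, Finsupp.add_apply, hC, hp.out.factorization_pow,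
        Finsupp.single_eq_same]
    rw [← pow_add, ← h4]
    exact P.card_eq_multiplicity
  have h4 : p ^ a ≤ Nat.card O := by
    rw [← h1]
    by_contra hcon
    push Not at hcon
    have e1 := S.card_mul_index
    rw [h3] at e1
    have e2 : Nat.card S * S.index ≤ p ^ (Nat.card C).factorization p * S.index :=
      Nat.mul_le_mul_right _ h2
    have e3 : p ^ (Nat.card C).factorization p * S.index <
        p ^ (Nat.card C).factorization p * p ^ a :=
      Nat.mul_lt_mul_of_pos_left hcon (pow_pos hp.out.pos _)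
    omega
  have h5 : Nat.card (G ⧸ C) = p ^ a := by rw [← Subgroup.index_eq_card, hC]
  have h6 : Function.Surjective (Subtype.val : O → G ⧸ C) := by
    have := (Nat.bijective_iff_injective_and_card (Subtype.val : O → G ⧸ C)).2
      ⟨Subtype.val_injective, le_antisymm
        (Nat.card_le_card_of_injective _ Subtype.val_injective) (h5 ▸ h4)⟩
    exact this.2
  obtain ⟨⟨z, hz⟩, hzg⟩ := h6 ((g : G) : G ⧸ C)
  obtain ⟨w, hw⟩ := hz
  have h7 : (((w : G) * 1 : G) : G ⧸ C) = (g : G ⧸ C) := hw.trans hzg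
  rw [QuotientGroup.eq, mul_one] at h7
  exact ⟨w, w.2, _, h7, by group⟩

/-- the situation after the choice of `y` -/
structure Fin1 (G : Type*) [Group G] (p a n : ℕ) (y : G) (A H : Subgroup G) : Prop where
  cs : CS G p a n
  pel : PEl p y
  idx : (CG y).index = p ^ a
  dec : Dec p (CG y) A H

namespace Fin1

variable {p a n : ℕ} [hp : Fact p.Prime] {y : G} {A H : Subgroup G}

theorem normalClosure_le (h : Fin1 G p a n y A H) :
    IsPGroup p (normalClosure ({y} : Set G)) := by
  obtain ⟨P, hP⟩ := h.pel.isPGroup_zpowers.exists_le_sylow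
  have hyP : y ∈ (P : Subgroup G) := hP (mem_zpowers y)
  apply P.2.to_le
  rw [normalClosure, closure_le]
  intro z hz
  rw [Group.mem_conjugatesOfSet_iff] at hz
  obtain ⟨w, hw, hwz⟩ := hz
  rw [Set.mem_singleton_iff] at hw
  subst hw
  obtain ⟨g, rfl⟩ := isConj_iff.1 hwz
  obtain ⟨x, hx, c, hc, rfl⟩ := exists_mul P h.idx g
  have e : x * c * w * (x * c)⁻¹ = x * w * x⁻¹ := by
    have e1 : c * w = w * c := mem_CG.1 hc
    calc x * c * w * (x * c)⁻¹ = x * (c * w) * c⁻¹ * x⁻¹ := by group
      _ = x * (w * c) * c⁻¹ * x⁻¹ := by rw [e1]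
      _ = x * w * x⁻¹ := by group
  rw [e]
  exact (P : Subgroup G).mul_mem ((P : Subgroup G).mul_mem hx hyP) ((P : Subgroup G).inv_mem hx)

theorem le_centralizer (h : Fin1 G p a n y A H) :
    H ≤ centralizer ((normalClosure ({y} : Set G) : Subgroup G) : Set G) := by
  set U := normalClosure ({y} : Set G) with hU
  have hUp : IsPGroup p U := h.normalClosure_le
  have hyU : y ∈ U := subset_normalClosure rfl
  have hnil : Group.IsNilpotent U := hUp.isNilpotent
  refine Cfsg.Agent.S1442.result U H hnil ?_ ?_ ?_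
  · rw [normalizer_eq_top]; exact le_top
  · obtain ⟨k, hk⟩ := IsPGroup.iff_card.1 hUp
    rw [hk]
    exact (Nat.Coprime.pow_left k ((Nat.Prime.coprime_iff_not_dvd hp.out).2 h.dec.cop)).symm
  · intro u hu
    refine ⟨hu.1, ?_⟩
    have hyC : y ∈ U ⊓ centralizer (H : Set G) := by
      exact ⟨hyU, mem_centralizer_iff.2 fun v hv => mem_CG.1 (h.dec.le' hv)⟩
    have huy : u ∈ CG y := mem_CG.2 (mem_centralizer_iff.1 hu.2 y hyC).symm
    have huA : u ∈ A := h.dec.mem_P huy (PEl.of_mem hUp hu.1)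
    exact mem_centralizer_iff.2 fun v hv => (h.dec.comm u huA v hv).symm

theorem mem_H_of_centralizer (h : Fin1 G p a n y A H) {g : G}
    (hg : g ∈ centralizer ((normalClosure ({y} : Set G) : Subgroup G) : Set G))
    (hgp : ¬ p ∣ orderOf g) : g ∈ H := by
  refine h.dec.mem_H (mem_CG.2 ?_) hgp
  exact (mem_centralizer_iff.1 hg y (subset_normalClosure rfl)).symm

theorem normal_H (h : Fin1 G p a n y A H) : H.Normal := by
  refine ⟨fun v hv g => ?_⟩
  haveI : (centralizer ((normalClosure ({y} : Set G) : Subgroup G) : Set G)).Normal :=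
    inferInstance
  refine h.mem_H_of_centralizer (this.conj_mem _ (h.le_centralizer hv) g) ?_
  exact not_dvd_orderOf_conj (not_dvd_orderOf_of_mem h.dec.cop hv) g

theorem card_G (h : Fin1 G p a n y A H) : Nat.card G = Nat.card H * (Nat.card A * p ^ a) := by
  rw [← (CG y).card_mul_index, h.idx, h.dec.card_eq]; ring

theorem card_A (h : Fin1 G p a n y A H) : ∃ k, Nat.card A = p ^ k := IsPGroup.iff_card.1 h.dec.pgrp

theorem index_H (h : Fin1 G p a n y A H) : ∃ k, H.index = p ^ k := by
  obtain ⟨k, hk⟩ := h.card_A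
  refine ⟨k + a, ?_⟩
  have h1 := h.card_G
  rw [← H.card_mul_index, hk, ← pow_add] at h1
  exact Nat.eq_of_mul_eq_mul_left Nat.card_pos h1

/-- every `p'`-element is in `H` -/
theorem mem_H (h : Fin1 G p a n y A H) {g : G} (hg : ¬ p ∣ orderOf g) : g ∈ H := by
  haveI := h.normal_H
  obtain ⟨k, hk⟩ := h.index_H
  rw [← QuotientGroup.eq_one_iff (N := H)]
  have h1 : ((g : G ⧸ H)) ^ p ^ k = 1 := by
    rw [← hk, Subgroup.index_eq_card]; exact pow_card_eq_one'
  have h2 : (g : G ⧸ H) ^ orderOf g = 1 := by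
    rw [← QuotientGroup.mk_pow, pow_orderOf_eq_one]; rfl
  exact PEl.eq_one hp.out ⟨k, h1⟩ (fun hd => hg (hd.trans (orderOf_dvd_of_pow_eq_one h2)))

theorem cop_A (h : Fin1 G p a n y A H) : y ∉ center G := h.cs.not_center1 h.idx

/-- `|H ∩ C(g)| s = |H|` if the class size of `g` is `p ^ a s`. -/
theorem card_inf (h : Fin1 G p a n y A H) {g : G} {s : ℕ} (hs : ¬ p ∣ s)
    (hg : (CG g).index = p ^ a * s) : Nat.card (H ⊓ CG g : Subgroup G) * s = Nat.card H := by
  haveI := h.normal_H
  obtain ⟨k, hk⟩ := h.index_H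
  have h1 : H.relIndex (CG g) ∣ p ^ k := hk ▸ relIndex_dvd_index_of_normal H (CG g)
  obtain ⟨j, -, hj⟩ := (Nat.dvd_prime_pow hp.out).1 h1
  have h2 : Nat.card (H ⊓ CG g : Subgroup G) * H.relIndex (CG g) = Nat.card (CG g) := by
    have h3 : Nat.card (H.subgroupOf (CG g)) = Nat.card (H ⊓ CG g : Subgroup G) := by
      rw [← subgroupOf_map_subtype]
      exact Nat.card_congr ((H.subgroupOf (CG g)).equivMapOfInjective _
        (CG g).subtype_injective).toEquiv
    rw [← h3]
    exact (H.subgroupOf (CG g)).card_mul_index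
  have h3 := (CG g).card_mul_index
  rw [← h2, hj, hg, ← H.card_mul_index, hk] at h3
  refine eq_of_mul_pow (i := j + a) (j := k) hp.out ?_ h.dec.cop ?_
  · rw [hp.out.dvd_mul]
    rintro (hd | hd)
    · exact h.dec.cop (hd.trans (card_dvd_of_le inf_le_left))
    · exact hs hd
  · rw [← h3, pow_add]; ring

theorem le_of_index (h : Fin1 G p a n y A H) {g : G} (hg : (CG g).index = p ^ a) : H ≤ CG g := by
  have h1 := h.card_inf (s := 1) (fun hd => hp.out.one_lt.ne' (Nat.dvd_one.1 hd))
    (by rw [mul_one]; exact hg)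
  rw [mul_one] at h1
  have h2 : (H ⊓ CG g : Subgroup G) = H := eq_of_le_of_card_ge inf_le_left h1.ge
  rw [← h2]; exact inf_le_right

theorem index_of_le (h : Fin1 G p a n y A H) {g : G} (hgc : g ∉ center G) (hg : H ≤ CG g) :
    (CG g).index = p ^ a := by
  rcases h.cs.ind g hgc with h1 | h1
  · exact h1
  · exfalso
    have h2 := h.card_inf h.cs.cop h1
    rw [inf_eq_left.2 hg] at h2
    have h3 : 0 < Nat.card H := Nat.card_pos
    have h4 := h.cs.n1
    nlinarith

theorem H_not_center (h : Fin1 G p a n y A H) : ¬ H ≤ center G := by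
  intro hH
  obtain ⟨x, hx⟩ := h.cs.ex2
  have h2 := h.card_inf h.cs.cop hx
  rw [inf_eq_left.2 (hH.trans (center_le_CG x))] at h2
  have h3 : 0 < Nat.card H := Nat.card_pos
  have h4 := h.cs.n1
  nlinarith

/-- a `p`-element centralizing `H` is in `A` -/
theorem mem_A (h : Fin1 G p a n y A H) {g : G} (hg : PEl p g) (hgH : ∀ v ∈ H, g * v = v * g) :
    g ∈ A := by
  haveI := h.normal_H
  obtain ⟨h0, h0H, h0c⟩ := Set.not_subset.1 h.H_not_center
  set D := centralizer (H : Set G) with hD
  have hgD : g ∈ D := mem_centralizer_iff.2 fun v hv => (hgH v hv).symm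
  have hAD : A ≤ D := fun u hu => mem_centralizer_iff.2 fun v hv => (h.dec.comm u hu v hv).symm
  obtain ⟨k, hk⟩ := h.index_H
  have hpq : IsPGroup p (G ⧸ H) := by
    apply IsPGroup.of_card (n := k)
    rw [← Subgroup.index_eq_card, hk]
  haveI : Group.IsNilpotent (G ⧸ H) := hpq.isNilpotent
  have hnil : Group.IsNilpotent D := by
    refine Subgroup.isNilpotent_of_ker_le_center ((QuotientGroup.mk' H).comp D.subtype) ?_
    intro z hz
    have h1 : (z : G) ∈ H := (QuotientGroup.eq_one_iff (z : G)).1 hz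
    rw [mem_center_iff]
    intro w
    exact Subtype.ext (mem_centralizer_iff.1 w.2 z h1).symm
  obtain ⟨Q, hQ⟩ := (h.dec.pgrp.comap_of_injective D.subtype D.subtype_injective).exists_le_sylow
  have hQn : (Q : Subgroup D).Normal :=
    (((Group.isNilpotent_of_finite_tfae (G := D)).out 0 3 : _ ↔ ∀ (q : ℕ) (_ : Fact q.Prime)
      (S : Sylow q D), (S : Subgroup D).Normal).1 hnil) p hp Q
  haveI := Sylow.unique_of_normal Q hQn
  have hgp : PEl p (⟨g, hgD⟩ : D) := by
    obtain ⟨k, hk⟩ := hg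
    exact ⟨k, Subtype.ext (by simpa using hk)⟩
  obtain ⟨Q', hQ'⟩ := hgp.isPGroup_zpowers.exists_le_sylow
  have hQQ : Q' = Q := Subsingleton.elim _ _
  have h3 : (⟨g, hgD⟩ : D) ∈ (Q : Subgroup D) := hQQ ▸ hQ' (mem_zpowers _)
  have h4 : (Q : Subgroup D).map D.subtype ≤ CG h0 := by
    rintro _ ⟨z, -, rfl⟩
    exact mem_CG.2 (mem_centralizer_iff.1 z.2 h0 h0H).symm
  have h5 := card_le_of_isPGroup (Q.2.map D.subtype) h4
  rw [h.cs.base.card_eq h0c h.cop_A, ← h.dec.card_P] at h5
  have h6 : A ≤ (Q : Subgroup D).map D.subtype := by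
    intro u hu
    exact ⟨⟨u, hAD hu⟩, hQ (mem_subgroupOf.2 hu), rfl⟩
  have h7 : A = (Q : Subgroup D).map D.subtype := eq_of_le_of_card_ge h6 h5
  rw [h7]
  exact ⟨_, h3, rfl⟩

theorem normal_A (h : Fin1 G p a n y A H) : A.Normal := by
  haveI := h.normal_H
  refine ⟨fun u hu g => h.mem_A ((PEl.of_mem h.dec.pgrp hu).conj g) ?_⟩
  intro v hv
  have h1 : g⁻¹ * v * g⁻¹⁻¹ ∈ H := h.normal_H.conj_mem v hv g⁻¹
  have h2 := h.dec.comm u hu _ h1
  calc g * u * g⁻¹ * v = g * (u * (g⁻¹ * v * g⁻¹⁻¹)) * g⁻¹ := by group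
    _ = g * ((g⁻¹ * v * g⁻¹⁻¹) * u) * g⁻¹ := by rw [h2]
    _ = v * (g * u * g⁻¹) := by group

theorem y_mem (h : Fin1 G p a n y A H) : y ∈ A := h.dec.mem_P (self_mem_CG y) h.pel

theorem CG_eq (h : Fin1 G p a n y A H) {z : G} (hz : z ∈ A) (hzc : z ∉ center G) :
    CG z = CG y := by
  have hzp : PEl p z := PEl.of_mem h.dec.pgrp hz
  have hHz : H ≤ CG z := fun v hv => mem_CG.2 (h.dec.comm z hz v hv).symm
  have hi := h.index_of_le hzc hHz
  obtain ⟨A', H', hD⟩ := h.cs.base.exists_dec hzc hzp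
  have hHH : H ≤ H' := fun v hv => hD.mem_H (hHz hv) (not_dvd_orderOf_of_mem h.dec.cop hv)
  have hAA : A' ≤ A := fun u hu => h.mem_A (PEl.of_mem hD.pgrp hu)
    (fun v hv => hD.comm u hu v (hHH hv))
  have e1 := (CG z).card_mul_index
  have e2 := (CG y).card_mul_index
  rw [hi] at e1
  rw [h.idx] at e2
  have e3 : Nat.card (CG z) = Nat.card (CG y) :=
    Nat.eq_of_mul_eq_mul_right (pow_pos hp.out.pos a) (e1.trans e2.symm)
  apply eq_of_le_of_card_ge
  · intro g hg
    obtain ⟨u, hu, v, hv, rfl⟩ := hD.mulm g hg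
    exact mul_mem (h.dec.le (hAA hu)) (h.dec.le' (h.mem_H (not_dvd_orderOf_of_mem hD.cop hv)))
  · rw [e3]

theorem comm_A (h : Fin1 G p a n y A H) : ∀ u ∈ A, ∀ w ∈ A, u * w = w * u := by
  intro u hu w hw
  by_cases huc : u ∈ center G
  · exact (mem_center_iff.1 huc w).symm
  · have h1 : w ∈ CG u := by rw [h.CG_eq hu huc]; exact h.dec.le hw
    exact (mem_CG.1 h1).symm

/-- `p`-elements outside `A` -/
theorem type2 (h : Fin1 G p a n y A H) {t : G} (htp : PEl p t) (ht : t ∉ A) :
    (CG t).index = p ^ a * n ∧ H ⊓ CG t = H ⊓ center G ∧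
      Nat.card (H ⊓ center G : Subgroup G) * n = Nat.card H := by
  have htc : t ∉ center G := fun hh => ht (h.dec.mem_P (center_le_CG y hh) htp)
  have h1 : (CG t).index = p ^ a * n := by
    rcases h.cs.ind t htc with h1 | h1
    · exfalso
      have h2 := h.le_of_index h1
      exact ht (h.mem_A htp fun v hv => (mem_CG.1 (h2 hv)).symm)
    · exact h1
  have h2 : H ⊓ CG t = H ⊓ center G := by
    apply le_antisymm
    · rintro u ⟨huH, hut⟩
      refine ⟨huH, ?_⟩
      by_contra huc
      haveI := h.normal_A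
      have h3 : A ⊔ zpowers t ≤ CG u := by
        refine sup_le (fun z hz => mem_CG.2 (h.dec.comm z hz u huH)) (zpowers_le.2 ?_)
        exact mem_CG.2 (mem_CG.1 hut).symm
      have h4 : IsPGroup p (A ⊔ zpowers t : Subgroup G) := by
        rw [sup_comm]
        exact IsPGroup.to_sup_of_normal_right htp.isPGroup_zpowers h.dec.pgrp
      have h5 := card_le_of_isPGroup h4 h3
      rw [h.cs.base.card_eq huc h.cop_A, ← h.dec.card_P] at h5
      have h6 : A = A ⊔ zpowers t := eq_of_le_of_card_ge le_sup_left h5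
      apply ht
      rw [h6]
      exact mem_sup_right (mem_zpowers t)
    · exact inf_le_inf_left H (center_le_CG t)
  refine ⟨h1, h2, ?_⟩
  rw [← h2]
  exact h.card_inf h.cs.cop h1

theorem exists_t (h : Fin1 G p a n y A H) (P : Sylow p G) : ∃ t ∈ P, t ∉ A := by
  by_contra hcon
  push Not at hcon
  exact h.cop_A (h.cs.base.mem_center P fun g hg => h.dec.le (hcon g hg))

theorem comm_H (h : Fin1 G p a n y A H) : ∀ u ∈ H, ∀ w ∈ H, u * w = w * u := by
  intro u hu w hw
  by_cases huc : u ∈ center G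
  · exact (mem_center_iff.1 huc w).symm
  · rcases h.cs.ind u huc with h1 | h1
    · exact (mem_CG.1 (h.le_of_index h1 hw)).symm
    · exfalso
      obtain ⟨P⟩ : Nonempty (Sylow p G) := inferInstance
      obtain ⟨t, htP, htA⟩ := h.exists_t P
      obtain ⟨-, -, h2⟩ := h.type2 (PEl.of_mem P.2 htP) htA
      have h3 := h.card_inf h.cs.cop h1
      have h4 : Nat.card (H ⊓ center G : Subgroup G) = Nat.card (H ⊓ CG u : Subgroup G) :=
        Nat.eq_of_mul_eq_mul_right (by have := h.cs.n1; omega) (h2.trans h3.symm)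
      have h5 : (H ⊓ center G : Subgroup G) = H ⊓ CG u :=
        eq_of_le_of_card_ge (inf_le_inf_left H (center_le_CG u)) h4.ge
      have h6 : u ∈ (H ⊓ CG u : Subgroup G) := ⟨hu, self_mem_CG u⟩
      rw [← h5] at h6
      exact huc h6.2

theorem comm_M (h : Fin1 G p a n y A H) : ∀ u ∈ CG y, ∀ w ∈ CG y, u * w = w * u := by
  intro u hu w hw
  obtain ⟨u1, hu1, u2, hu2, rfl⟩ := h.dec.mulm u hu
  obtain ⟨w1, hw1, w2, hw2, rfl⟩ := h.dec.mulm w hw
  have c1 : Commute u1 w1 := h.comm_A _ hu1 _ hw1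
  have c2 : Commute u1 w2 := h.dec.comm _ hu1 _ hw2
  have c3 : Commute w1 u2 := h.dec.comm _ hw1 _ hu2
  have c4 : Commute u2 w2 := h.comm_H _ hu2 _ hw2
  exact ((c1.mul_right c2).mul_left (c3.symm.mul_right c4)).eq

theorem normal_M (h : Fin1 G p a n y A H) : (CG y).Normal := by
  refine ⟨fun u hu g => ?_⟩
  obtain ⟨u1, hu1, u2, hu2, rfl⟩ := h.dec.mulm u hu
  have e : g * (u1 * u2) * g⁻¹ = (g * u1 * g⁻¹) * (g * u2 * g⁻¹) := by group
  rw [e]
  exact mul_mem (h.dec.le (h.normal_A.conj_mem _ hu1 g)) (h.dec.le' (h.normal_H.conj_mem _ hu2 g))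

theorem coe_M (h : Fin1 G p a n y A H) :
    ((CG y : Subgroup G) : Set G) = {x : G | (CG x).index = 1 ∨ (CG x).index = p ^ a} := by
  ext x
  simp only [SetLike.mem_coe, Set.mem_ofPred_eq]
  constructor
  · intro hx
    by_cases hxc : x ∈ center G
    · exact Or.inl (index_one_of_mem hxc)
    · right
      refine h.cs.index_of_le hxc (fun g hg => mem_CG.2 (h.comm_M g hg x hx)) h.idx
  · rintro (hx | hx)
    · rw [Subgroup.index_eq_one, CG_eq_top_iff] at hx
      exact center_le_CG y hx
    · have h1 := h.le_of_index hx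
      obtain ⟨c, d, hcd, hcd', hc, hd, hcz, hdz⟩ := exists_parts hp.out x
      rw [hcd]
      refine mul_mem (h.dec.le (h.mem_A hc ?_)) (h.dec.le' (h.mem_H hd))
      intro v hv
      obtain ⟨k, rfl⟩ := mem_zpowers_iff.1 hcz
      exact ((show Commute v x from mem_CG.1 (h1 hv)).zpow_right k).symm.eq

theorem A_le (h : Fin1 G p a n y A H) (P : Sylow p G) : A ≤ P := by
  haveI := h.normal_A
  exact h.dec.pgrp.le_sylow_of_normal P

theorem a_eq_one (h : Fin1 G p a n y A H) : a = 1 := by
  obtain ⟨P⟩ : Nonempty (Sylow p G) := inferInstance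
  obtain ⟨x, hx, h1, h2, h3⟩ := exists_special (A := A) P.2 (h.A_le P)
    (fun g _ u hu => h.normal_A.conj_mem u hu g) (fun hh => h.cop_A (hh h.y_mem))
  have hS : Spec P x := ⟨h.A_le P hx, h1, h2, h3⟩
  have hD : Dec p (CG x) A H := by rw [h.CG_eq hx h1]; exact h.dec
  exact hS.a_eq_one h.cs.base hD h.H_not_center

theorem card_P (h : Fin1 G p a n y A H) (P : Sylow p G) :
    Nat.card (P : Subgroup G) = Nat.card A * p := by
  have h1 := h.cs.base.card_add h.cop_A
  rw [h.a_eq_one] at h1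
  have h2 : Nat.card (P : Subgroup G) = p ^ (Nat.card G).factorization p := P.card_eq_multiplicity
  rw [h2, ← h1, pow_succ, h.dec.card_P]

theorem dvd_sub (h : Fin1 G p a n y A H) : p ∣ n - 1 := by
  obtain ⟨P⟩ : Nonempty (Sylow p G) := inferInstance
  obtain ⟨t, htP, htA⟩ := h.exists_t P
  have htp : PEl p t := PEl.of_mem P.2 htP
  obtain ⟨-, h2, h3⟩ := h.type2 htp htA
  have hN : ∀ g ∈ (P : Subgroup G), ∀ v ∈ H, g * v * g⁻¹ ∈ H := fun g _ v hv =>
    h.normal_H.conj_mem v hv g
  set π := QuotientGroup.mk' (center G) with hπ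
  set X := H.map π with hX
  have hXc : Nat.card X = n := by
    have h4 : Nat.card X = (center G).relIndex H := by
      have := relIndex_ker H π
      rw [hπ, QuotientGroup.ker_mk'] at this
      exact this.symm
    have h5 : Nat.card (center G ⊓ H : Subgroup G) * (center G).relIndex H = Nat.card H := by
      have h6 : Nat.card ((center G).subgroupOf H) = Nat.card (center G ⊓ H : Subgroup G) := by
        rw [← subgroupOf_map_subtype]
        exact Nat.card_congr (((center G).subgroupOf H).equivMapOfInjective _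
          H.subtype_injective).toEquiv
      rw [← h6]
      exact ((center G).subgroupOf H).card_mul_index
    rw [h4]
    rw [inf_comm, ← h3] at h5
    exact Nat.eq_of_mul_eq_mul_left Nat.card_pos h5
  set Φ := act H (P : Subgroup G) hN with hΦ
  letI : MulAction (P : Subgroup G) X := MulAction.compHom X Φ
  have hsm : ∀ (g : (P : Subgroup G)) (x : X), g • x = Φ g x := fun g x => rfl
  have h4 := P.2.card_modEq_card_fixedPoints X
  have h5 : Nat.card (MulAction.fixedPoints (P : Subgroup G) X) = 1 := by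
    rw [Nat.card_eq_one_iff_unique]
    constructor
    · constructor
      have key : ∀ z : MulAction.fixedPoints (P : Subgroup G) X, (z : X) = 1 := by
        rintro ⟨⟨x, hx⟩, hfx⟩
        obtain ⟨u, hu, rfl⟩ := hx
        have h6 := hfx ⟨t, htP⟩
        rw [hsm] at h6
        have h7 : t * u = u * t := act_fix H (P : Subgroup G) hN h.dec.cop htP htp hu h6
        have h8 : u ∈ (H ⊓ CG t : Subgroup G) := ⟨hu, mem_CG.2 h7.symm⟩
        rw [h2] at h8
        apply Subtype.ext
        exact (QuotientGroup.eq_one_iff u).2 h8.2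
      intro z w
      exact Subtype.ext ((key z).trans (key w).symm)
    · refine ⟨⟨1, fun g => ?_⟩⟩
      rw [hsm, map_one]
  rw [hXc, h5] at h4
  exact (Nat.modEq_iff_dvd' (by have := h.cs.n1; omega)).1 h4.symm

theorem card_A_inf (h : Fin1 G p a n y A H) {t : G} (htp : PEl p t) (htA : t ∉ A) :
    Nat.card A = Nat.card (A ⊓ CG t : Subgroup G) * p := by
  have htc : t ∉ center G := fun hh => htA (h.dec.mem_P (center_le_CG y hh) htp)
  obtain ⟨T, K, hD⟩ := h.cs.base.exists_dec htc htp
  have htT : t ∈ T := hD.mem_P (self_mem_CG t) htp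
  obtain ⟨P, hP⟩ := hD.pgrp.exists_le_sylow
  have h1 : Nat.card T = Nat.card A := by
    rw [hD.card_P, h.dec.card_P, h.cs.base.card_eq htc h.cop_A]
  haveI := h.normal_A
  have h2 : A ⊓ CG t = A ⊓ T := by
    apply le_antisymm
    · rintro u ⟨hu, hut⟩
      exact ⟨hu, hD.mem_P hut (PEl.of_mem h.dec.pgrp hu)⟩
    · exact inf_le_inf_left A hD.le
  have h3 : Nat.card (A ⊓ T : Subgroup G) * A.relIndex T = Nat.card T := by
    have h6 : Nat.card (A.subgroupOf T) = Nat.card (A ⊓ T : Subgroup G) := by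
      rw [← subgroupOf_map_subtype]
      exact Nat.card_congr ((A.subgroupOf T).equivMapOfInjective _ T.subtype_injective).toEquiv
    rw [← h6]
    exact (A.subgroupOf T).card_mul_index
  have h4 : A.relIndex (P : Subgroup G) = p := by
    have h5 := card_mul_relIndex' A (P : Subgroup G)
    rw [inf_eq_left.2 (h.A_le P), h.card_P P] at h5
    exact Nat.eq_of_mul_eq_mul_left Nat.card_pos h5
  have h5 : A.relIndex T ∣ A.relIndex (P : Subgroup G) := by
    rw [relIndex_eq_card_map, relIndex_eq_card_map]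
    exact card_dvd_of_le (map_mono hP)
  rw [h4] at h5
  rcases (Nat.dvd_prime hp.out).1 h5 with h6 | h6
  · exfalso
    exact htA ((relIndex_eq_one.1 h6) htT)
  · rw [h2, ← h1, ← h3, h6]

end Fin1

end Cfsg.Agent.H558.Cs
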